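/-
Class functions on all the general linear groups of a finite field at once, the Harish-Chandra
(Hall) product, its adjunction formula, commutativity and associativity.
-/
import Cfsg.Agent.Lib.GLn.Types
import Cfsg.Agent.Lib.GLn.Blocks
import Cfsg.Agent.Lib.Char.Central
import Cfsg.Agent.Lib.Char.Gen

set_option autoImplicit false
set_option linter.unusedSectionVars false

namespace Cfsg.Agent.HC

open Matrix Cfsg
open scoped MatrixGroups ComplexConjugate

variable {F : Type*} [Field F] [Fintype F] [DecidableEq F]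

/-- A class function on some `GL_n(F)`, extended by zero to all matrices. -/
structure CF (F : Type*) [Field F] where
  n : ℕ
  f : Matrix (Fin n) (Fin n) F → ℂ
  cl : ∀ (P Q M : Matrix (Fin n) (Fin n) F), Q * P = 1 → f (Q * M * P) = f M
  sing : ∀ M, ¬ IsUnit M → f M = 0

section ev
variable {ι κ : Type*} [Fintype ι] [Fintype κ] [DecidableEq ι] [DecidableEq κ]

noncomputable def CF.ev (A : CF F) {ι : Type*} [Fintype ι] (M : Matrix ι ι F) : ℂ :=
  if h : Fintype.card ι = A.n then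
    A.f (M.submatrix (Fintype.equivFinOfCardEq h).symm (Fintype.equivFinOfCardEq h).symm) else 0

theorem CF.f_perm (A : CF F) (σ : Equiv.Perm (Fin A.n)) (M : Matrix (Fin A.n) (Fin A.n) F) :
    A.f (M.submatrix σ σ) = A.f M := by
  have h := A.cl ((1 : Matrix (Fin A.n) (Fin A.n) F).submatrix id σ)
    ((1 : Matrix (Fin A.n) (Fin A.n) F).submatrix σ id) M (by
      rw [show (1 : Matrix (Fin A.n) (Fin A.n) F).submatrix σ id *
        (1 : Matrix (Fin A.n) (Fin A.n) F).submatrix id σ =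
        ((1 : Matrix (Fin A.n) (Fin A.n) F) * 1).submatrix σ σ from
        (submatrix_mul_equiv _ _ σ (Equiv.refl _) σ)]
      simp)
  rw [← h]
  congr 1
  have e1 : (1 : Matrix (Fin A.n) (Fin A.n) F).submatrix σ id * M = M.submatrix σ id := by
    have := submatrix_mul_equiv (1 : Matrix (Fin A.n) (Fin A.n) F) M σ (Equiv.refl _) id
    simpa using this
  rw [e1]
  have := submatrix_mul_equiv M (1 : Matrix (Fin A.n) (Fin A.n) F) σ (Equiv.refl _) σ
  simpa using this.symm

theorem CF.ev_eq (A : CF F) (e : Fin A.n ≃ ι) (M : Matrix ι ι F) :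
    A.ev M = A.f (M.submatrix e e) := by
  have h : Fintype.card ι = A.n := by rw [← Fintype.card_congr e, Fintype.card_fin]
  rw [CF.ev, dif_pos h, ← A.f_perm (e.trans (Fintype.equivFinOfCardEq h))]
  congr 1
  ext i j
  simp

theorem CF.ev_fin (A : CF F) (M : Matrix (Fin A.n) (Fin A.n) F) : A.ev M = A.f M := by
  rw [A.ev_eq (Equiv.refl _)]; rfl

theorem CF.ev_of_ne (A : CF F) (h : Fintype.card ι ≠ A.n) (M : Matrix ι ι F) : A.ev M = 0 :=
  dif_neg h

theorem CF.card_eq (A : CF F) {M : Matrix ι ι F} (h : A.ev M ≠ 0) : Fintype.card ι = A.n := by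
  by_contra h'
  exact h (A.ev_of_ne h' M)

theorem CF.ev_submatrix (A : CF F) (e : κ ≃ ι) (M : Matrix ι ι F) :
    A.ev (M.submatrix e e) = A.ev M := by
  by_cases h : Fintype.card κ = A.n
  · rw [A.ev_eq (Fintype.equivFinOfCardEq h).symm,
      A.ev_eq ((Fintype.equivFinOfCardEq h).symm.trans e)]
    rfl
  · rw [A.ev_of_ne h, A.ev_of_ne (by rwa [← Fintype.card_congr e])]

theorem CF.ev_conj (A : CF F) {P Q : Matrix ι ι F} (h : Q * P = 1)
    (M : Matrix ι ι F) : A.ev (Q * M * P) = A.ev M := by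
  by_cases hc : Fintype.card ι = A.n
  · set e := (Fintype.equivFinOfCardEq hc).symm
    rw [A.ev_eq e, A.ev_eq e, ← submatrix_mul_equiv _ _ e e e, ← submatrix_mul_equiv _ _ e e e]
    apply A.cl
    rw [submatrix_mul_equiv, h, submatrix_one_equiv]
  · rw [A.ev_of_ne hc, A.ev_of_ne hc]

theorem CF.ev_conjGL (A : CF F) (x : GL ι F) (M : Matrix ι ι F) :
    A.ev (((x⁻¹ : GL ι F) : Matrix ι ι F) * M * (x : Matrix ι ι F)) = A.ev M :=
  A.ev_conj (by simp) M

theorem isUnit_submatrix (e : κ ≃ ι) (M : Matrix ι ι F) :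
    IsUnit (M.submatrix e e) ↔ IsUnit M := by
  rw [isUnit_iff_isUnit_det, isUnit_iff_isUnit_det, det_submatrix_equiv_self]

theorem CF.ev_sing (A : CF F) {M : Matrix ι ι F} (h : ¬ IsUnit M) : A.ev M = 0 := by
  by_cases hc : Fintype.card ι = A.n
  · rw [A.ev_eq (Fintype.equivFinOfCardEq hc).symm]
    exact A.sing _ (by rwa [isUnit_submatrix])
  · exact A.ev_of_ne hc M

theorem exists_conj_transpose (M : Matrix ι ι F) :
    ∃ P Q : Matrix ι ι F, Q * P = 1 ∧ Mᵀ = Q * M * P := by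
  obtain ⟨P, hP⟩ := GLn.similar_of_kdim_eq (A := M) (B := Mᵀ) fun r _ _ j => by
    have h1 := GLn.kdim_add_rank M (r ^ j)
    have h2 := GLn.kdim_add_rank Mᵀ (r ^ j)
    have h3 : Polynomial.aeval Mᵀ (r ^ j) = (Polynomial.aeval M (r ^ j))ᵀ := by
      generalize r ^ j = g
      induction g using Polynomial.induction_on' with
      | add p q hp hq => simp [hp, hq]
      | monomial k a =>
        simp [Polynomial.aeval_monomial, Algebra.algebraMap_eq_smul_one, transpose_pow]
    rw [h3, rank_transpose] at h2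
    omega
  refine ⟨(P⁻¹ : GL ι F), P, by simp, ?_⟩
  rw [hP, Matrix.mul_assoc]
  simp

theorem CF.ev_transpose (A : CF F) (M : Matrix ι ι F) : A.ev Mᵀ = A.ev M := by
  obtain ⟨P, Q, h, e⟩ := exists_conj_transpose M
  rw [e, A.ev_conj h]

theorem CF.ext' {A B : CF F} (hn : A.n = B.n) (h : ∀ M, A.f M = B.ev M) : A = B := by
  obtain ⟨n, f, c1, s1⟩ := A
  obtain ⟨m, g, c2, s2⟩ := B
  dsimp only at hn
  subst hn
  have : f = g := funext fun M => (h M).trans (CF.ev_fin ⟨n, g, c2, s2⟩ M)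
  subst this
  rfl

end ev

section sums
variable {ι κ : Type*} [Fintype ι] [Fintype κ] [DecidableEq ι] [DecidableEq κ]

/-- the order of `GL_n(F)` -/
noncomputable def gl (F : Type*) [Field F] (n : ℕ) : ℕ := Nat.card (GL (Fin n) F)

/-- reindexing of general linear groups -/
def glEquiv (e : κ ≃ ι) : GL ι F ≃* GL κ F :=
  Units.mapEquiv (reindexAlgEquiv F F e.symm).toMulEquiv

theorem coe_glEquiv (e : κ ≃ ι) (x : GL ι F) :
    ((glEquiv e x : GL κ F) : Matrix κ κ F) = (x : Matrix ι ι F).submatrix e e := rfl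

theorem card_GL : Nat.card (GL ι F) = gl F (Fintype.card ι) :=
  Nat.card_congr (glEquiv (Fintype.equivFin ι).symm).toEquiv

theorem gl_pos (n : ℕ) : 0 < gl F n := Nat.card_pos

theorem gl_ne (n : ℕ) : (gl F n : ℂ) ≠ 0 := by exact_mod_cast (gl_pos n).ne'

theorem gl_zero : gl F 0 = 1 := by
  unfold gl
  exact Nat.card_unique

theorem sum_GL (f : Matrix ι ι F → ℂ)
    (hf : ∀ M, ¬ IsUnit M → f M = 0) : ∑ x : GL ι F, f x = ∑ M, f M := by
  refine Fintype.sum_of_injective _ Units.val_injective _ _ (fun M hM => hf M ?_) fun _ => rfl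
  rintro ⟨u, rfl⟩
  exact hM ⟨u, rfl⟩

theorem sum_submatrix (e : κ ≃ ι) (f : Matrix κ κ F → ℂ) :
    ∑ M : Matrix ι ι F, f (M.submatrix e e) = ∑ M, f M :=
  Fintype.sum_equiv (Matrix.reindex e.symm e.symm) _ _ fun _ => rfl

theorem sum_conj {P Q : Matrix ι ι F} (h : Q * P = 1) (f : Matrix ι ι F → ℂ) :
    ∑ M : Matrix ι ι F, f (Q * M * P) = ∑ M, f M := by
  have h' : P * Q = 1 := mul_eq_one_comm.1 h
  refine Fintype.sum_bijective (fun M => Q * M * P) ?_ _ _ fun _ => rfl
  refine Finite.injective_iff_bijective.1 fun M N hMN => ?_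
  have := congrArg (fun X => P * X * Q) hMN
  simp only [← Matrix.mul_assoc, h', Matrix.one_mul] at this
  simpa only [Matrix.mul_assoc, h', Matrix.mul_one] using this

theorem sum_fromBlocks {α β γ δ : Type*} [Fintype α] [Fintype β] [Fintype γ] [Fintype δ]
    [DecidableEq α] [DecidableEq β] [DecidableEq γ] [DecidableEq δ]
    (f : Matrix (α ⊕ β) (γ ⊕ δ) F → ℂ) :
    ∑ M, f M = ∑ a : Matrix α γ F, ∑ d : Matrix β δ F, ∑ b : Matrix α δ F, ∑ c : Matrix β γ F,
      f (fromBlocks a b c d) := by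
  let e : (Matrix α γ F × Matrix β δ F × Matrix α δ F × Matrix β γ F) ≃
      Matrix (α ⊕ β) (γ ⊕ δ) F :=
    { toFun := fun x => fromBlocks x.1 x.2.2.1 x.2.2.2 x.2.1
      invFun := fun M => (M.toBlocks₁₁, M.toBlocks₂₂, M.toBlocks₁₂, M.toBlocks₂₁)
      left_inv := fun x => by simp
      right_inv := fun M => by simp [fromBlocks_toBlocks] }
  rw [← e.sum_comp]
  simp only [Fintype.sum_prod_type]
  rfl

end sums

section ip
variable {ι κ : Type*} [Fintype ι] [Fintype κ] [DecidableEq ι] [DecidableEq κ]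

noncomputable def ip (A B : CF F) : ℂ :=
  (gl F A.n : ℂ)⁻¹ * ∑ M : Matrix (Fin A.n) (Fin A.n) F, A.f M * conj (B.ev M)

theorem ip_eq (A B : CF F) (h : Fintype.card ι = A.n) :
    ip A B = (gl F A.n : ℂ)⁻¹ * ∑ M : Matrix ι ι F, A.ev M * conj (B.ev M) := by
  unfold ip
  congr 1
  set e := (Fintype.equivFinOfCardEq h).symm
  rw [← sum_submatrix e]
  refine Finset.sum_congr rfl fun M _ => ?_
  rw [← A.ev_eq, B.ev_submatrix]

theorem ip_of_ne {A B : CF F} (h : A.n ≠ B.n) : ip A B = 0 := by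
  unfold ip
  rw [Finset.sum_eq_zero, mul_zero]
  intro M _
  rw [B.ev_of_ne (by simpa using h)]
  simp

theorem n_eq_of_ip {A B : CF F} (h : ip A B ≠ 0) : A.n = B.n := by
  by_contra h'
  exact h (ip_of_ne h')

theorem conj_ip (A B : CF F) : conj (ip A B) = ip B A := by
  by_cases h : A.n = B.n
  · rw [ip_eq B A (ι := Fin A.n) (by simpa using h), ip_eq A B (ι := Fin A.n) (by simp), ← h]
    simp [mul_comm]
  · rw [ip_of_ne h, ip_of_ne (Ne.symm h), map_zero]

theorem ip_ne_comm {A B : CF F} (h : ip A B ≠ 0) : ip B A ≠ 0 := by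
  rw [← conj_ip]; simpa using h

/-- the class function on `GL ι F` -/
noncomputable def CF.chr (A : CF F) (ι : Type*) [Fintype ι] [DecidableEq ι] : GL ι F → ℂ :=
  fun x => A.ev (x : Matrix ι ι F)

theorem CF.isClass_chr (A : CF F) (ι : Type*) [Fintype ι] [DecidableEq ι] :
    IsClassFunction (GL ι F) (A.chr ι) := fun g h => by
  simp only [CF.chr, Units.val_mul]
  exact A.ev_conj (by simp) _

theorem ip_eq_inner (A B : CF F) (h : Fintype.card ι = A.n) :
    ip A B = classInner (A.chr ι) (B.chr ι) := by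
  rw [ip_eq A B h, classInner, card_GL, h]
  congr 1
  refine (sum_GL (fun M => A.ev M * conj (B.ev M)) fun M hM => ?_).symm
  rw [A.ev_sing hM, zero_mul]

open scoped Classical in
/-- a class function of `GL_n` as a member of `CF` -/
noncomputable def ofClass {n : ℕ} (χ : GL (Fin n) F → ℂ) (h : IsClassFunction _ χ) : CF F where
  n := n
  f M := if hM : IsUnit M then χ hM.unit else 0
  cl P Q M hQ := by
    have hP : P * Q = 1 := (mul_eq_one_comm (a := Q) (b := P)).1 hQ
    let x : GL (Fin n) F := ⟨Q, P, hQ, hP⟩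
    by_cases hM : IsUnit M
    · have h2 : IsUnit (Q * M * P) := (x.isUnit.mul hM).mul x⁻¹.isUnit
      rw [dif_pos hM, dif_pos h2, ← h hM.unit x]
      congr 1
      exact Units.ext rfl
    · rw [dif_neg hM, dif_neg]
      intro h2
      apply hM
      have h3 := (x⁻¹.isUnit.mul h2).mul x.isUnit
      change IsUnit (P * (Q * M * P) * Q) at h3
      simpa only [← Matrix.mul_assoc, hP, Matrix.one_mul, Matrix.mul_assoc M, Matrix.mul_one]
        using h3
  sing M hM := dif_neg hM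

theorem chr_ofClass {n : ℕ} (χ : GL (Fin n) F → ℂ) (h : IsClassFunction _ χ) :
    (ofClass χ h).chr (Fin n) = χ := by
  ext x
  refine ((ofClass χ h).ev_fin (x : Matrix (Fin n) (Fin n) F)).trans ?_
  simp [ofClass]

theorem eq_of_chr {A B : CF F} (hn : A.n = B.n) (h : A.chr (Fin A.n) = B.chr (Fin A.n)) :
    A = B := by
  refine CF.ext' hn fun M => ?_
  by_cases hM : IsUnit M
  · obtain ⟨x, rfl⟩ := hM
    rw [← A.ev_fin]
    exact congrFun h x
  · rw [A.sing M hM, B.ev_sing hM]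

def IsCh (A : CF F) : Prop := IsCharacter _ (A.chr (Fin A.n))
def IsIr (A : CF F) : Prop := IsIrrCharacter _ (A.chr (Fin A.n))

theorem IsIr.isCh {A : CF F} (h : IsIr A) : IsCh A := Char.isChar_of_irr h

theorem chr_eq_comp (A : CF F) (e : Fin A.n ≃ ι) :
    A.chr ι = fun x => A.chr (Fin A.n) ((glEquiv e).toMonoidHom x) := by
  ext x
  exact (A.ev_submatrix e _).symm

theorem IsCh.chr {A : CF F} (h : IsCh A) : IsCharacter _ (A.chr ι) := by
  by_cases hc : Fintype.card ι = A.n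
  · rw [chr_eq_comp A (Fintype.equivFinOfCardEq hc).symm]
    exact Char.isChar_comp _ h
  · have : A.chr ι = 0 := funext fun x => A.ev_of_ne hc _
    rw [this]
    exact Char.isChar_zero

theorem IsIr.chr {A : CF F} (h : IsIr A) (hc : Fintype.card ι = A.n) :
    IsIrrCharacter _ (A.chr ι) := by
  rw [chr_eq_comp A (Fintype.equivFinOfCardEq hc).symm]
  exact Char.isIrr_comp _ (glEquiv _).surjective h

theorem isIr_ofClass {n : ℕ} {χ : GL (Fin n) F → ℂ} (h : IsIrrCharacter _ χ) :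
    IsIr (ofClass χ (Char.isClass_of_irr h)) := by
  unfold IsIr
  exact (chr_ofClass χ _).symm ▸ h

theorem ext_ip {A B : CF F} (hn : A.n = B.n) (h : ∀ X, IsIr X → ip A X = ip B X) : A = B := by
  refine eq_of_chr hn (Char.class_ext_inner (A.isClass_chr _) (B.isClass_chr _) fun χ hχ => ?_)
  have := h _ (isIr_ofClass hχ)
  rwa [ip_eq_inner (ι := Fin A.n) _ _ (by simp), ip_eq_inner (ι := Fin A.n) _ _ (by simpa),
    chr_ofClass] at this

theorem isCh_of_ip {A : CF F} (h : ∀ X, IsIr X → X.n = A.n → ∃ k : ℕ, ip A X = k) : IsCh A := by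
  refine Char.isChar_of_inner_nat (A.isClass_chr _) fun χ hχ => ?_
  have := h _ (isIr_ofClass hχ) rfl
  rwa [ip_eq_inner (ι := Fin A.n) _ _ (by simp), chr_ofClass] at this

theorem IsCh.exists_nat {A B : CF F} (hA : IsCh A) (hB : IsCh B) : ∃ k : ℕ, ip A B = k := by
  rw [ip_eq_inner (ι := Fin A.n) _ _ (by simp)]
  exact Char.exists_nat_inner hA hB.chr

theorem IsIr.ip_self {A : CF F} (hA : IsIr A) : ip A A = 1 := by
  rw [ip_eq_inner (ι := Fin A.n) _ _ (by simp)]
  exact Char.inner_irr_self hA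

theorem IsIr.eq_of_ip {A B : CF F} (hA : IsIr A) (hB : IsIr B) (h : ip A B ≠ 0) : A = B := by
  have hn := n_eq_of_ip h
  rw [ip_eq_inner (ι := Fin A.n) _ _ (by simp)] at h
  exact eq_of_chr hn (Char.eq_of_inner_irr_ne_zero hA (hB.chr (by simpa)) h)

theorem exists_ir_common {A B : CF F} (h : ip A B ≠ 0) :
    ∃ X, IsIr X ∧ ip A X ≠ 0 ∧ ip B X ≠ 0 := by
  have hn := n_eq_of_ip h
  rw [ip_eq_inner (ι := Fin A.n) _ _ (by simp)] at h
  obtain ⟨χ, hχ, h1, h2⟩ := Char.exists_irr_common (A.isClass_chr _) h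
  refine ⟨_, isIr_ofClass hχ, ?_, ?_⟩
  · rwa [ip_eq_inner (ι := Fin A.n) _ _ (by simp), chr_ofClass]
  · rwa [ip_eq_inner (ι := Fin A.n) _ _ (by simpa), chr_ofClass]

theorem inner_ne_zero_of_common {G : Type*} [Group G] [Fintype G] {φ ψ χ : G → ℂ}
    (hφ : IsCharacter G φ) (hψ : IsCharacter G ψ) (hχ : IsIrrCharacter G χ)
    (h1 : classInner φ χ ≠ 0) (h2 : classInner ψ χ ≠ 0) : classInner φ ψ ≠ 0 := by
  have h3 := Char.isChar_sub_irr hψ hχ h2
  obtain ⟨a, ha⟩ := Char.exists_nat_inner hφ h3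
  obtain ⟨b, hb⟩ := Char.exists_nat_inner hφ (Char.isChar_of_irr hχ)
  rw [Char.inner_sub_right, hb, sub_eq_iff_eq_add] at ha
  rw [hb] at h1
  rw [ha]
  have : b ≠ 0 := by simpa using h1
  have h4 : a + b ≠ 0 := by omega
  exact_mod_cast h4

theorem ip_ne_of_common {A B X : CF F} (hA : IsCh A) (hB : IsCh B) (hX : IsIr X)
    (h1 : ip A X ≠ 0) (h2 : ip B X ≠ 0) : ip A B ≠ 0 := by
  have e1 := n_eq_of_ip h1
  have e2 := n_eq_of_ip h2
  rw [ip_eq_inner (ι := Fin A.n) _ _ (by simp)] at h1 ⊢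
  rw [ip_eq_inner (ι := Fin A.n) _ _ (by simp; omega)] at h2
  exact inner_ne_zero_of_common hA hB.chr (hX.chr (by simpa)) h1 h2

end ip

end Cfsg.Agent.HC
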