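/-
The Harish-Chandra product of class functions of general linear groups.
-/
import Cfsg.Agent.Lib.GLn.HC1

set_option autoImplicit false
set_option linter.unusedSectionVars false

namespace Cfsg.Agent.HC

open Matrix Cfsg
open scoped MatrixGroups ComplexConjugate

variable {F : Type*} [Field F] [Fintype F] [DecidableEq F]
variable {ι κ α β γ δ : Type*} [Fintype ι] [Fintype κ] [Fintype α] [Fintype β] [Fintype γ]
  [Fintype δ] [DecidableEq ι] [DecidableEq κ] [DecidableEq α] [DecidableEq β] [DecidableEq γ]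
  [DecidableEq δ]

noncomputable def tt (A B : CF F) (N : Matrix (α ⊕ β) (α ⊕ β) F) : ℂ :=
  if N.toBlocks₂₁ = 0 then A.ev N.toBlocks₁₁ * B.ev N.toBlocks₂₂ else 0

theorem tt_fromBlocks (A B : CF F) (a : Matrix α α F) (b : Matrix α β F) (c : Matrix β α F)
    (d : Matrix β β F) :
    tt A B (fromBlocks a b c d) = if c = 0 then A.ev a * B.ev d else 0 := rfl

theorem isUnit_fromBlocks {a : Matrix α α F} {b : Matrix α β F} {d : Matrix β β F} :
    IsUnit (fromBlocks a b 0 d) ↔ IsUnit a ∧ IsUnit d := by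
  simp only [isUnit_iff_isUnit_det, det_fromBlocks_zero₂₁, IsUnit.mul_iff]

theorem tt_sing (A B : CF F) {N : Matrix (α ⊕ β) (α ⊕ β) F} (h : ¬ IsUnit N) : tt A B N = 0 := by
  rw [← fromBlocks_toBlocks N] at h ⊢
  rw [tt_fromBlocks]
  split_ifs with h0
  · rw [h0, isUnit_fromBlocks, not_and_or] at h
    rcases h with h | h
    · rw [A.ev_sing h, zero_mul]
    · rw [B.ev_sing h, mul_zero]
  · rfl

theorem tt_sumCongr (A B : CF F) (e : γ ≃ α) (e' : δ ≃ β) (N : Matrix (α ⊕ β) (α ⊕ β) F) :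
    tt A B (N.submatrix (e.sumCongr e') (e.sumCongr e')) = tt A B N := by
  rw [← fromBlocks_toBlocks N]
  generalize N.toBlocks₁₁ = a, N.toBlocks₁₂ = b, N.toBlocks₂₁ = c, N.toBlocks₂₂ = d
  have : (fromBlocks a b c d).submatrix (e.sumCongr e') (e.sumCongr e') =
      fromBlocks (a.submatrix e e) (b.submatrix e e') (c.submatrix e' e) (d.submatrix e' e') := by
    ext i j
    rcases i with i | i <;> rcases j with j | j <;> rfl
  rw [this, tt_fromBlocks, tt_fromBlocks, A.ev_submatrix, B.ev_submatrix]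
  congr 1
  refine propext ⟨fun h => ?_, fun h => by rw [h]; rfl⟩
  ext i j
  simpa using congrFun (congrFun h (e'.symm i)) (e.symm j)

theorem tt_conj (A B : CF F) {P Q : Matrix (α ⊕ β) (α ⊕ β) F} (h : Q * P = 1)
    (hP : P.toBlocks₂₁ = 0) (hQ : Q.toBlocks₂₁ = 0) (N : Matrix (α ⊕ β) (α ⊕ β) F) :
    tt A B (Q * N * P) = tt A B N := by
  obtain ⟨a, b, c, d, rfl⟩ : ∃ a b c d, N = fromBlocks a b c d := ⟨_, _, _, _, (fromBlocks_toBlocks N).symm⟩
  obtain ⟨p1, p2, p3, p4, rfl⟩ : ∃ a b c d, P = fromBlocks a b c d :=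
    ⟨_, _, _, _, (fromBlocks_toBlocks P).symm⟩
  obtain ⟨q1, q2, q3, q4, rfl⟩ : ∃ a b c d, Q = fromBlocks a b c d :=
    ⟨_, _, _, _, (fromBlocks_toBlocks Q).symm⟩
  simp only [toBlocks_fromBlocks₂₁] at hP hQ
  subst hP hQ
  rw [fromBlocks_multiply, ← fromBlocks_one, fromBlocks_inj] at h
  obtain ⟨h1, -, -, h4⟩ := h
  simp only [Matrix.mul_zero, add_zero, Matrix.zero_mul, zero_add] at h1 h4
  simp only [fromBlocks_multiply, Matrix.mul_zero, add_zero, Matrix.zero_mul, zero_add,
    tt_fromBlocks]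
  by_cases hc : c = 0
  · subst hc
    simp [A.ev_conj h1, B.ev_conj h4]
  · rw [if_neg hc, if_neg]
    intro h0
    apply hc
    have h5 : p4 * (q4 * c * p1) * q1 = c := by
      simp only [← Matrix.mul_assoc, (mul_eq_one_comm.1 h4), Matrix.one_mul]
      rw [Matrix.mul_assoc, mul_eq_one_comm.1 h1, Matrix.mul_one]
    rw [← h5, h0]
    simp

/-- the order of the parabolic subgroup with blocks `a`, `b` -/
noncomputable def pc (F : Type*) [Field F] [Fintype F] (a b : ℕ) : ℂ :=
  gl F a * gl F b * (Fintype.card F : ℂ) ^ (a * b)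

theorem card_ne : (Fintype.card F : ℂ) ≠ 0 := by exact_mod_cast Fintype.card_ne_zero

theorem pc_ne (a b : ℕ) : pc F a b ≠ 0 :=
  mul_ne_zero (mul_ne_zero (gl_ne a) (gl_ne b)) (pow_ne_zero _ card_ne)

theorem conj_pc (a b : ℕ) : conj (pc F a b) = pc F a b := by simp [pc]

noncomputable def mul (A B : CF F) : CF F where
  n := A.n + B.n
  f M := (pc F A.n B.n)⁻¹ * ∑ x : GL (Fin (A.n + B.n)) F,
    tt A B ((((x⁻¹ : GL _ F) : Matrix _ _ F) * M * (x : Matrix _ _ F)).submatrix
      finSumFinEquiv finSumFinEquiv)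
  cl P Q M hQ := by
    have hP : P * Q = 1 := (mul_eq_one_comm (a := Q) (b := P)).1 hQ
    let y : GL (Fin (A.n + B.n)) F := ⟨P, Q, hP, hQ⟩
    congr 1
    refine Fintype.sum_equiv (Equiv.mulLeft y) _ _ fun x => ?_
    simp only [Equiv.coe_mulLeft, _root_.mul_inv_rev, Units.val_mul, Matrix.mul_assoc]
    rfl
  sing M hM := by
    rw [Finset.sum_eq_zero, mul_zero]
    intro x _
    apply tt_sing
    rw [isUnit_submatrix]
    simpa using hM

noncomputable instance : Mul (CF F) := ⟨mul⟩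

@[simp] theorem mul_n (A B : CF F) : (A * B).n = A.n + B.n := rfl

theorem ev_mul (A B : CF F) (e : α ⊕ β ≃ ι) (ha : Fintype.card α = A.n)
    (hb : Fintype.card β = B.n) (M : Matrix ι ι F) :
    (A * B).ev M = (pc F A.n B.n)⁻¹ * ∑ x : GL ι F,
      tt A B ((((x⁻¹ : GL ι F) : Matrix ι ι F) * M * (x : Matrix ι ι F)).submatrix e e) := by
  let e1 := (Fintype.equivFinOfCardEq ha).symm
  let e2 := (Fintype.equivFinOfCardEq hb).symm
  let e0 : Fin (A.n + B.n) ≃ ι := finSumFinEquiv.symm.trans ((e1.sumCongr e2).trans e)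
  rw [(A * B).ev_eq e0]
  change (pc F A.n B.n)⁻¹ * _ = _
  congr 1
  refine (Fintype.sum_equiv (glEquiv e0).toEquiv _ _ fun x => ?_).symm
  rw [← tt_sumCongr A B e1 e2]
  congr 1
  have h1 : ((glEquiv e0).toEquiv x)⁻¹ = glEquiv e0 x⁻¹ := (map_inv (glEquiv e0) x).symm
  rw [h1]
  change _ = ((((x⁻¹ : GL ι F) : Matrix ι ι F).submatrix e0 e0 * M.submatrix e0 e0 *
    (x : Matrix ι ι F).submatrix e0 e0)).submatrix _ _
  rw [submatrix_mul_equiv, submatrix_mul_equiv]
  ext i j
  simp [e0]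

theorem ip_mul' (A B X : CF F) (e : α ⊕ β ≃ ι) (ha : Fintype.card α = A.n)
    (hb : Fintype.card β = B.n) :
    ip (A * B) X = (pc F A.n B.n)⁻¹ *
      ∑ M : Matrix ι ι F, tt A B (M.submatrix e e) * conj (X.ev M) := by
  have hc : Fintype.card ι = (A * B).n := by
    rw [← Fintype.card_congr e, Fintype.card_sum, ha, hb]; rfl
  rw [ip_eq _ _ hc]
  simp only [ev_mul A B e ha hb, mul_assoc, Finset.sum_mul, ← Finset.mul_sum]
  rw [Finset.sum_comm]
  have : ∀ x : GL ι F, ∑ M : Matrix ι ι F, tt A B ((((x⁻¹ : GL ι F) : Matrix ι ι F) *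
      (M * (x : Matrix ι ι F))).submatrix e e) * conj (X.ev M) =
      ∑ M : Matrix ι ι F, tt A B (M.submatrix e e) * conj (X.ev M) := by
    intro x
    rw [← sum_conj (P := (x : Matrix ι ι F)) (Q := ((x⁻¹ : GL ι F) : Matrix ι ι F)) (by simp)
      (fun M => tt A B (M.submatrix e e) * conj (X.ev M))]
    refine Finset.sum_congr rfl fun M _ => ?_
    rw [X.ev_conjGL, Matrix.mul_assoc]
  simp only [this, Finset.sum_const, Finset.card_univ, nsmul_eq_mul]
  rw [← Nat.card_eq_fintype_card, card_GL, hc]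
  have := gl_ne (F := F) (A * B).n
  field_simp

/-- Harish-Chandra restriction, not normalised -/
noncomputable def res (X : CF F) (a : Matrix α α F) (d : Matrix β β F) : ℂ :=
  ∑ b : Matrix α β F, X.ev (fromBlocks a b 0 d)

theorem ip_mul (A B X : CF F) (ha : Fintype.card α = A.n) (hb : Fintype.card β = B.n) :
    ip (A * B) X = (pc F A.n B.n)⁻¹ *
      ∑ a : Matrix α α F, ∑ d : Matrix β β F, A.ev a * B.ev d * conj (res X a d) := by
  rw [ip_mul' A B X (Equiv.refl (α ⊕ β)) ha hb, sum_fromBlocks]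
  congr 1
  refine Finset.sum_congr rfl fun a _ => Finset.sum_congr rfl fun d _ => ?_
  simp only [res, map_sum, Finset.mul_sum]
  refine Finset.sum_congr rfl fun b _ => ?_
  simp [tt_fromBlocks]

theorem res_conj_left (X : CF F) {P Q : Matrix α α F} (h : Q * P = 1) (a : Matrix α α F)
    (d : Matrix β β F) : res X (Q * a * P) d = res X a d := by
  have h' : P * Q = 1 := mul_eq_one_comm.1 h
  refine (Fintype.sum_bijective (fun b => Q * b) ?_ _ _ fun b => ?_).symm
  · refine Finite.injective_iff_bijective.1 fun b b' hb => ?_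
    have := congrArg (fun Y => P * Y) hb
    simpa only [← Matrix.mul_assoc, h', Matrix.one_mul] using this
  · rw [← X.ev_conj (P := fromBlocks P 0 0 1) (Q := fromBlocks Q 0 0 1)
      (by simp [fromBlocks_multiply, h])]
    simp [fromBlocks_multiply]

theorem res_swap (X : CF F) (a : Matrix α α F) (d : Matrix β β F) :
    res X a d = res X dᵀ aᵀ := by
  refine Fintype.sum_bijective (fun b => bᵀ) ⟨transpose_injective, fun b => ⟨bᵀ, rfl⟩⟩ _ _
    fun b => ?_
  rw [← X.ev_transpose, ← X.ev_submatrix (Equiv.sumComm β α)]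
  congr 1
  ext i j
  rcases i with i | i <;> rcases j with j | j <;> rfl

theorem res_conj_right (X : CF F) {P Q : Matrix β β F} (h : Q * P = 1) (a : Matrix α α F)
    (d : Matrix β β F) : res X a (Q * d * P) = res X a d := by
  rw [res_swap, res_swap X a d, transpose_mul, transpose_mul, ← Matrix.mul_assoc]
  apply res_conj_left
  rw [← transpose_mul, h, transpose_one]

theorem res_comm (X : CF F) (a : Matrix α α F) (d : Matrix β β F) : res X a d = res X d a := by
  obtain ⟨P, Q, h, e⟩ := exists_conj_transpose a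
  obtain ⟨P', Q', h', e'⟩ := exists_conj_transpose d
  rw [res_swap, e, e', res_conj_left X h', res_conj_right X h]

theorem res_submatrix (X : CF F) (e : γ ≃ α) (e' : δ ≃ β) (a : Matrix α α F) (d : Matrix β β F) :
    res X (a.submatrix e e) (d.submatrix e' e') = res X a d := by
  refine (Fintype.sum_equiv (Matrix.reindex e.symm e'.symm) _ _ fun b => ?_).symm
  rw [← X.ev_submatrix (e.sumCongr e')]
  congr 1
  ext i j
  rcases i with i | i <;> rcases j with j | j <;> rfl

theorem res_sing_left (X : CF F) {a : Matrix α α F} (h : ¬ IsUnit a) (d : Matrix β β F) :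
    res X a d = 0 :=
  Finset.sum_eq_zero fun _ _ => X.ev_sing fun h' => h (isUnit_fromBlocks.1 h').1

theorem res_sing_right (X : CF F) (a : Matrix α α F) {d : Matrix β β F} (h : ¬ IsUnit d) :
    res X a d = 0 :=
  Finset.sum_eq_zero fun _ _ => X.ev_sing fun h' => h (isUnit_fromBlocks.1 h').2

theorem res_empty [IsEmpty β] (X : CF F) (a : Matrix α α F) (d : Matrix β β F) :
    res X a d = X.ev a := by
  have : Unique (Matrix α β F) := ⟨⟨0⟩, fun b => by ext i j; exact isEmptyElim j⟩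
  rw [res, Fintype.sum_unique, ← X.ev_submatrix (Equiv.sumEmpty α β).symm]
  rfl

theorem res_empty' [IsEmpty α] (X : CF F) (a : Matrix α α F) (d : Matrix β β F) :
    res X a d = X.ev d := by
  rw [res_comm, res_empty]

/-- the restriction as a function of the second block -/
noncomputable def rgt (X : CF F) (a : Matrix α α F) (k : ℕ) : CF F where
  n := k
  f d := res X a d
  cl _ _ _ h := res_conj_right X h _ _
  sing _ h := res_sing_right X a h

theorem ev_rgt (X : CF F) (a : Matrix α α F) {k : ℕ} (h : Fintype.card β = k)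
    (d : Matrix β β F) : (rgt X a k).ev d = res X a d := by
  rw [(rgt X a k).ev_eq (Fintype.equivFinOfCardEq h).symm]
  exact res_submatrix X (Equiv.refl _) _ a d

theorem res_assoc (X : CF F) (a : Matrix α α F) (b : Matrix β β F) (c : Matrix γ γ F) :
    ∑ y : Matrix α β F, res X (fromBlocks a y 0 b) c =
      ∑ z : Matrix β γ F, res X a (fromBlocks b z 0 c) := by
  let e : (Matrix α β F × Matrix (α ⊕ β) γ F) ≃ (Matrix β γ F × Matrix α (β ⊕ γ) F) :=
    { toFun := fun x => (x.2.toRows₂, fromCols x.1 x.2.toRows₁)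
      invFun := fun x => (x.2.toCols₁, fromRows x.2.toCols₂ x.1)
      left_inv := fun x => by simp
      right_inv := fun x => by simp }
  simp only [res]
  rw [← Fintype.sum_prod_type', ← Fintype.sum_prod_type']
  refine Fintype.sum_equiv e _ _ fun x => ?_
  rw [← X.ev_submatrix (Equiv.sumAssoc α β γ).symm]
  congr 1
  ext i j
  rcases i with i | i | i <;> rcases j with j | j | j <;> rfl

protected theorem mul_comm (A B : CF F) : A * B = B * A := by
  refine ext_ip (add_comm _ _) fun X _ => ?_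
  rw [ip_mul A B X (α := Fin A.n) (β := Fin B.n) (by simp) (by simp),
    ip_mul B A X (α := Fin B.n) (β := Fin A.n) (by simp) (by simp), Finset.sum_comm]
  congr 1
  · unfold pc; rw [mul_comm A.n]; ring
  · refine Finset.sum_congr rfl fun a _ => Finset.sum_congr rfl fun d _ => ?_
    rw [res_comm]; ring

theorem ip_mul_mul (A B C X : CF F) :
    ip (A * (B * C)) X = ((gl F A.n * gl F B.n * gl F C.n : ℂ) *
      (Fintype.card F : ℂ) ^ (A.n * B.n + A.n * C.n + B.n * C.n))⁻¹ *
      ∑ a : Matrix (Fin A.n) (Fin A.n) F, ∑ b : Matrix (Fin B.n) (Fin B.n) F,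
        ∑ c : Matrix (Fin C.n) (Fin C.n) F, A.ev a * B.ev b * C.ev c *
          conj (∑ z : Matrix (Fin B.n) (Fin C.n) F, res X a (fromBlocks b z 0 c)) := by
  rw [ip_mul A (B * C) X (α := Fin A.n) (β := Fin B.n ⊕ Fin C.n) (by simp) (by simp)]
  have : ∀ a : Matrix (Fin A.n) (Fin A.n) F,
      ∑ d : Matrix (Fin B.n ⊕ Fin C.n) (Fin B.n ⊕ Fin C.n) F,
        A.ev a * (B * C).ev d * conj (res X a d) =
      gl F (B.n + C.n) * (pc F B.n C.n)⁻¹ * ∑ b : Matrix (Fin B.n) (Fin B.n) F,
        ∑ c : Matrix (Fin C.n) (Fin C.n) F, A.ev a * B.ev b * C.ev c *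
          conj (∑ z : Matrix (Fin B.n) (Fin C.n) F, res X a (fromBlocks b z 0 c)) := by
    intro a
    have h1 := ip_eq (B * C) (rgt X a (B.n + C.n)) (ι := Fin B.n ⊕ Fin C.n) (by simp)
    rw [ip_mul B C _ (α := Fin B.n) (β := Fin C.n) (by simp) (by simp)] at h1
    simp only [res, ev_rgt X a (β := Fin B.n ⊕ Fin C.n) (k := B.n + C.n) (by simp)] at h1
    simp only [mul_assoc, ← Finset.mul_sum] at h1 ⊢
    simp only [res] at h1 ⊢
    rw [mul_left_comm (pc F B.n C.n)⁻¹, h1, mul_n]
    have := gl_ne (F := F) (B.n + C.n)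
    field_simp
  simp only [this, ← Finset.mul_sum, ← mul_assoc]
  congr 1
  have h1 := gl_ne (F := F) (B.n + C.n)
  have h2 := gl_ne (F := F) A.n
  have h3 := gl_ne (F := F) B.n
  have h4 := gl_ne (F := F) C.n
  have h5 := card_ne (F := F)
  simp only [pc, mul_n]
  field_simp
  ring

protected theorem mul_assoc (A B C : CF F) : A * B * C = A * (B * C) := by
  refine ext_ip (add_assoc _ _ _) fun X _ => ?_
  rw [HC.mul_comm (A * B), ip_mul_mul, ip_mul_mul]
  congr 1
  · congr 1; ring
  · rw [Finset.sum_comm]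
    refine Finset.sum_congr rfl fun a _ => ?_
    rw [Finset.sum_comm]
    refine Finset.sum_congr rfl fun b _ => Finset.sum_congr rfl fun c _ => ?_
    rw [← res_assoc X a b c]
    have : ∀ z : Matrix (Fin A.n) (Fin B.n) F, res X c (fromBlocks a z 0 b) =
        res X (fromBlocks a z 0 b) c := fun z => res_comm X _ _
    simp only [this]
    ring

noncomputable def one : CF F where
  n := 0
  f _ := 1
  cl _ _ _ _ := rfl
  sing M hM := (hM (by rw [Subsingleton.elim M 1]; exact isUnit_one)).elim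

protected theorem one_mul (A : CF F) : one * A = A := by
  refine ext_ip (zero_add _) fun X _ => ?_
  let _ : Unique (Matrix (Fin 0) (Fin 0) F) := ⟨⟨0⟩, fun b => Subsingleton.elim _ _⟩
  rw [ip_mul one A X (α := Fin 0) (β := Fin A.n) (by simp [one]) (by simp), Fintype.sum_unique,
    ip]
  congr 1
  · simp [pc, one, gl_zero]
  · refine Finset.sum_congr rfl fun d _ => ?_
    rw [res_empty', A.ev_fin, show (one : CF F).ev (default : Matrix (Fin 0) (Fin 0) F) = 1 from
      (one : CF F).ev_fin _, one_mul]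

noncomputable instance : CommMonoid (CF F) where
  mul_assoc := HC.mul_assoc
  one := one
  one_mul := HC.one_mul
  mul_one A := by rw [HC.mul_comm]; exact HC.one_mul A
  mul_comm := HC.mul_comm

@[simp] theorem one_n : (1 : CF F).n = 0 := rfl

theorem ev_one [IsEmpty ι] (M : Matrix ι ι F) : (1 : CF F).ev M = 1 :=
  (1 : CF F).ev_eq (Equiv.equivOfIsEmpty (Fin 0) ι) M

theorem isIr_one : IsIr (1 : CF F) := by
  have : (1 : CF F).chr (Fin 0) = 1 := funext fun x => ev_one _
  change IsIrrCharacter _ ((1 : CF F).chr (Fin 0))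
  rw [this]
  exact Char.isIrr_one

theorem card_mat : Fintype.card (Matrix α β F) =
    Fintype.card F ^ (Fintype.card α * Fintype.card β) := by
  rw [Fintype.card_congr (Matrix.of (m := α) (n := β) (α := F)).symm, Fintype.card_fun,
    Fintype.card_fun, ← pow_mul, mul_comm]

/-- the unipotent radical -/
def radGL (F : Type*) [Field F] (α β : Type*) [Fintype α] [Fintype β] [DecidableEq α]
    [DecidableEq β] : Multiplicative (Matrix α β F) →* GL (α ⊕ β) F where
  toFun r := ⟨fromBlocks 1 r.toAdd 0 1, fromBlocks 1 (-r.toAdd) 0 1,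
    by simp [fromBlocks_multiply], by simp [fromBlocks_multiply]⟩
  map_one' := Units.ext (by simp)
  map_mul' x y := Units.ext (by simp [fromBlocks_multiply, add_comm])

theorem IsCh.mul {A B : CF F} (hA : IsCh A) (hB : IsCh B) : IsCh (A * B) := by
  refine isCh_of_ip fun X hX _ => ?_
  have h1 := Char.isChar_weight (radGL F (Fin A.n) (Fin B.n)) (GLn.blockGL F (Fin A.n) (Fin B.n))
    (fun _ => 1) (by simp) (fun s => ⟨
      { toFun := fun r => Multiplicative.ofAdd (s.1.1 * r.toAdd * (s.2⁻¹).1)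
        invFun := fun r => Multiplicative.ofAdd ((s.1⁻¹).1 * r.toAdd * s.2.1)
        left_inv := fun r => by simp [Matrix.mul_assoc]
        right_inv := fun r => by simp [Matrix.mul_assoc] }, fun r =>
      ⟨Units.ext (by simp [radGL, GLn.coe_blockGL, fromBlocks_multiply]), rfl⟩⟩)
    (hX.isCh.chr (ι := Fin A.n ⊕ Fin B.n))
  have h2 := Char.isChar_mul (Char.isChar_comp (MonoidHom.fst (GL (Fin A.n) F) (GL (Fin B.n) F)) hA)
    (Char.isChar_comp (MonoidHom.snd (GL (Fin A.n) F) (GL (Fin B.n) F)) hB)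
  obtain ⟨k, hk⟩ := Char.exists_nat_inner h2 h1
  refine ⟨k, ?_⟩
  rw [← hk, ip_mul A B X (α := Fin A.n) (β := Fin B.n) (by simp) (by simp), classInner,
    Fintype.sum_prod_type]
  rw [← sum_GL (fun a => ∑ d : Matrix (Fin B.n) (Fin B.n) F, A.ev a * B.ev d * conj (res X a d))
    (fun a ha => by simp [A.ev_sing ha])]
  have h3 : ∀ a : GL (Fin A.n) F, ∑ d : Matrix (Fin B.n) (Fin B.n) F,
      A.ev a.1 * B.ev d * conj (res X a.1 d) =
      ∑ d : GL (Fin B.n) F, A.ev a.1 * B.ev d.1 * conj (res X a.1 d.1) := fun a =>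
    (sum_GL (fun d => A.ev a.1 * B.ev d * conj (res X a.1 d))
      (fun d hd => by simp [B.ev_sing hd])).symm
  have h4 : ∀ (a : GL (Fin A.n) F) (d : GL (Fin B.n) F),
      ∑ r : Multiplicative (Matrix (Fin A.n) (Fin B.n) F), conj (1 : ℂ) *
        X.chr (Fin A.n ⊕ Fin B.n) (radGL F _ _ r * GLn.blockGL F _ _ (a, d)) = res X a.1 d.1 := by
    intro a d
    refine Fintype.sum_bijective (fun r => r.toAdd * d.1) ?_ _ _ fun r => ?_
    · refine ⟨fun r r' h => ?_, fun b => ⟨Multiplicative.ofAdd (b * (d⁻¹).1), by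
        simp [Matrix.mul_assoc]⟩⟩
      have := congrArg (fun Y => Y * (d⁻¹).1) h
      simpa [Matrix.mul_assoc] using this
    · simp [CF.chr, radGL, GLn.coe_blockGL, fromBlocks_multiply]
  simp only [h3, h4]
  simp only [Pi.mul_apply, MonoidHom.coe_fst, MonoidHom.coe_snd, CF.chr, map_mul,
    Nat.card_prod, map_inv₀, map_natCast, Finset.mul_sum]
  refine Finset.sum_congr rfl fun a _ => Finset.sum_congr rfl fun d _ => ?_
  have h5 : Nat.card (Multiplicative (Matrix (Fin A.n) (Fin B.n) F)) =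
      Fintype.card F ^ (A.n * B.n) := by
    rw [Nat.card_eq_fintype_card, Fintype.card_multiplicative, card_mat]
    simp
  rw [h5, pc]
  unfold gl
  push_cast
  ring

/-- the adjoint of multiplication by `A` -/
noncomputable def perp (A X : CF F) (k : ℕ) : CF F where
  n := k
  f d := ((gl F A.n : ℂ) * (Fintype.card F : ℂ) ^ (A.n * k))⁻¹ *
    ∑ a : Matrix (Fin A.n) (Fin A.n) F, conj (A.ev a) * res X a d
  cl _ _ _ h := by simp only [res_conj_right X h]
  sing _ h := by simp [res_sing_right X _ h]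

theorem ev_perp (A X : CF F) {k : ℕ} (ha : Fintype.card α = A.n) (h : Fintype.card β = k)
    (d : Matrix β β F) : (perp A X k).ev d =
      ((gl F A.n : ℂ) * (Fintype.card F : ℂ) ^ (A.n * k))⁻¹ *
        ∑ a : Matrix α α F, conj (A.ev a) * res X a d := by
  rw [(perp A X k).ev_eq (Fintype.equivFinOfCardEq h).symm]
  change _ * _ = _
  congr 1
  rw [← sum_submatrix (Fintype.equivFinOfCardEq ha).symm]
  refine Finset.sum_congr rfl fun a _ => ?_
  rw [A.ev_submatrix]
  exact congrArg _ (res_submatrix X _ _ a d)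

theorem ip_perp (A B X : CF F) : ip (A * B) X = ip B (perp A X B.n) := by
  rw [ip_mul A B X (α := Fin A.n) (β := Fin B.n) (by simp) (by simp), ip, Finset.sum_comm]
  simp only [ev_perp A X (α := Fin A.n) (β := Fin B.n) (k := B.n) (by simp) (by simp), map_mul,
    map_sum, Finset.mul_sum, map_inv₀, map_natCast, map_pow, Complex.conj_conj, B.ev_fin]
  refine Finset.sum_congr rfl fun a _ => Finset.sum_congr rfl fun d _ => ?_
  rw [pc]
  ring

theorem IsCh.perp {A X : CF F} (hA : IsCh A) (hX : IsCh X) (k : ℕ) : IsCh (perp A X k) := by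
  refine isCh_of_ip fun B hB hn => ?_
  obtain ⟨m, hm⟩ := (hA.mul hB.isCh).exists_nat hX
  refine ⟨m, ?_⟩
  have : B.n = k := hn
  rw [← conj_ip, ← this, ← ip_perp, hm, map_natCast]

/-- monotonicity of the product -/
theorem ip_mul_mono {A X Y T : CF F} (hA : IsCh A) (hX : IsCh X) (hY : IsCh Y) (hT : IsIr T)
    (h1 : ip (A * T) X ≠ 0) (h2 : ip Y T ≠ 0) : ip (A * Y) X ≠ 0 := by
  rw [ip_perp] at h1 ⊢
  rw [n_eq_of_ip h2]
  exact ip_ne_of_common hY (hA.perp hX _) hT h2 (ip_ne_comm h1)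

theorem exists_ir_of_ev (Y : CF F) (M : Matrix ι ι F) (hM : Y.ev M ≠ 0) :
    ∃ A, IsIr A ∧ ip A Y ≠ 0 := by
  have : ip Y Y ≠ 0 := by
    have hc := Y.card_eq hM
    rw [ip_eq_inner _ _ hc]
    intro h0
    have h1 := Char.eq_zero_of_inner_self h0
    by_cases hu : IsUnit M
    · obtain ⟨x, rfl⟩ := hu
      exact hM (congrFun h1 x)
    · exact hM (Y.ev_sing hu)
  obtain ⟨A, hA, h1, -⟩ := exists_ir_common this
  exact ⟨A, hA, ip_ne_comm h1⟩

theorem exists_ir_of_res {X : CF F} {a : Matrix α α F} {d : Matrix β β F} (h : res X a d ≠ 0) :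
    ∃ A B : CF F, IsIr A ∧ IsIr B ∧ A.n = Fintype.card α ∧ B.n = Fintype.card β ∧
      ip (A * B) X ≠ 0 := by
  obtain ⟨A, hA, h1⟩ := exists_ir_of_ev (rgt X d (Fintype.card α)) a (by rwa [ev_rgt X d rfl, res_comm])
  have hn : A.n = Fintype.card α := n_eq_of_ip h1
  obtain ⟨B, hB, h2⟩ := exists_ir_of_ev (perp A X (Fintype.card β)) d (by
    rw [ev_perp A X (α := α) (β := β) hn.symm rfl]
    refine mul_ne_zero (inv_ne_zero (mul_ne_zero (gl_ne _) (pow_ne_zero _ card_ne))) ?_
    have h3 := ip_ne_comm h1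
    rw [ip_eq _ _ (ι := α) rfl] at h3
    have h4 := right_ne_zero_of_mul h3
    simp only [ev_rgt X d (β := α) rfl] at h4
    simpa only [mul_comm, res_comm X d] using h4)
  have hm : B.n = Fintype.card β := n_eq_of_ip h2
  exact ⟨A, B, hA, hB, hn, hm, by rwa [ip_perp, hm]⟩

end Cfsg.Agent.HC
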