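/-
Mackey formula and cuspidal supports for general linear groups.
-/
import Cfsg.Agent.Lib.GLn.HC2
import Cfsg.Agent.Lib.GLn.Bruhat

set_option autoImplicit false
set_option linter.unusedSectionVars false

namespace Cfsg.Agent.HC

open Matrix Cfsg
open scoped MatrixGroups ComplexConjugate

variable {F : Type*} [Field F] [Fintype F] [DecidableEq F]
variable {ι κ α β γ δ : Type*} [Fintype ι] [Fintype κ] [Fintype α] [Fintype β] [Fintype γ]
  [Fintype δ] [DecidableEq ι] [DecidableEq κ] [DecidableEq α] [DecidableEq β] [DecidableEq γ]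
  [DecidableEq δ]

theorem sum_five {a b c d e : Type*} [Fintype a] [Fintype b] [Fintype c] [Fintype d] [Fintype e]
    (f : a → ℂ) (g : b → ℂ) (h : c → ℂ) (k : d → ℂ) :
    ∑ x : a × b × c × d × e, f x.1 * g x.2.1 * conj (h x.2.2.1 * k x.2.2.2.1) =
      Fintype.card e * ((∑ x, f x) * (∑ x, g x) * conj ((∑ x, h x) * ∑ x, k x)) := by
  simp only [Fintype.sum_prod_type, Finset.sum_const, Finset.card_univ, nsmul_eq_mul, map_mul,
    map_sum, ← Finset.mul_sum, ← Finset.sum_mul]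
  ring

theorem mackey4 (A X B Y : CF F) :
    ∑ M : Matrix ((α ⊕ β) ⊕ (γ ⊕ δ)) ((α ⊕ β) ⊕ (γ ⊕ δ)) F, tt A X M *
      conj (tt B Y (M.submatrix (Equiv.sumSumSumComm α γ β δ) (Equiv.sumSumSumComm α γ β δ))) =
    ∑ x : Matrix α α F × Matrix β β F × Matrix γ γ F × Matrix δ δ F,
      Fintype.card (Matrix α δ F) * (res A x.1 x.2.1 * res X x.2.2.1 x.2.2.2 *
        conj (res B x.1 x.2.2.1 * res Y x.2.1 x.2.2.2)) := by
  let mk : (Matrix α α F × Matrix β β F × Matrix γ γ F × Matrix δ δ F) ×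
      (Matrix α β F × Matrix γ δ F × Matrix α γ F × Matrix β δ F × Matrix α δ F) →
      Matrix ((α ⊕ β) ⊕ (γ ⊕ δ)) ((α ⊕ β) ⊕ (γ ⊕ δ)) F := fun x =>
    fromBlocks (fromBlocks x.1.1 x.2.1 0 x.1.2.1) (fromBlocks x.2.2.2.1 x.2.2.2.2.2 0 x.2.2.2.2.1) 0
      (fromBlocks x.1.2.2.1 x.2.2.1 0 x.1.2.2.2)
  have hinj : Function.Injective mk := by
    rintro ⟨⟨a1, a2, a3, a4⟩, ⟨b1, b2, b3, b4, b5⟩⟩ ⟨⟨c1, c2, c3, c4⟩, ⟨d1, d2, d3, d4, d5⟩⟩ h
    simp only [mk, fromBlocks_inj] at h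
    simp [h]
  have hsw : ∀ (p1 : Matrix α α F) (p2 : Matrix α β F) (p3 : Matrix β α F) (p4 : Matrix β β F)
      (q1 : Matrix α γ F) (q2 : Matrix α δ F) (q3 : Matrix β γ F) (q4 : Matrix β δ F)
      (r1 : Matrix γ γ F) (r2 : Matrix γ δ F) (r3 : Matrix δ γ F) (r4 : Matrix δ δ F),
      (fromBlocks (fromBlocks p1 p2 p3 p4) (fromBlocks q1 q2 q3 q4) 0
        (fromBlocks r1 r2 r3 r4)).submatrix (Equiv.sumSumSumComm α γ β δ)
        (Equiv.sumSumSumComm α γ β δ) =
      fromBlocks (fromBlocks p1 q1 0 r1) (fromBlocks p2 q2 0 r2) (fromBlocks p3 q3 0 r3)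
        (fromBlocks p4 q4 0 r4) := by
    intros
    ext i j
    rcases i with (i | i) | (i | i) <;> rcases j with (j | j) | (j | j) <;> rfl
  rw [← Fintype.sum_of_injective mk hinj (fun x => A.ev (fromBlocks x.1.1 x.2.1 0 x.1.2.1) *
    X.ev (fromBlocks x.1.2.2.1 x.2.2.1 0 x.1.2.2.2) *
    conj (B.ev (fromBlocks x.1.1 x.2.2.2.1 0 x.1.2.2.1) *
      Y.ev (fromBlocks x.1.2.1 x.2.2.2.2.1 0 x.1.2.2.2)))]
  · rw [Fintype.sum_prod_type]
    refine Finset.sum_congr rfl fun x _ => ?_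
    exact sum_five (fun b => A.ev (fromBlocks x.1 b 0 x.2.1))
      (fun b => X.ev (fromBlocks x.2.2.1 b 0 x.2.2.2)) (fun b => B.ev (fromBlocks x.1 b 0 x.2.2.1))
      (fun b => Y.ev (fromBlocks x.2.1 b 0 x.2.2.2))
  · intro M hM
    obtain ⟨a, b, c, d, rfl⟩ : ∃ a b c d, M = fromBlocks a b c d :=
      ⟨_, _, _, _, (fromBlocks_toBlocks M).symm⟩
    by_cases hc : c = 0
    · subst hc
      obtain ⟨p1, p2, p3, p4, rfl⟩ : ∃ p1 p2 p3 p4, a = fromBlocks p1 p2 p3 p4 :=
        ⟨_, _, _, _, (fromBlocks_toBlocks a).symm⟩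
      obtain ⟨q1, q2, q3, q4, rfl⟩ : ∃ p1 p2 p3 p4, b = fromBlocks p1 p2 p3 p4 :=
        ⟨_, _, _, _, (fromBlocks_toBlocks b).symm⟩
      obtain ⟨r1, r2, r3, r4, rfl⟩ : ∃ p1 p2 p3 p4, d = fromBlocks p1 p2 p3 p4 :=
        ⟨_, _, _, _, (fromBlocks_toBlocks d).symm⟩
      rw [hsw, tt_fromBlocks B, if_neg, map_zero, mul_zero]
      intro h
      rw [← fromBlocks_zero, fromBlocks_inj] at h
      obtain ⟨rfl, rfl, -, rfl⟩ := h
      exact hM ⟨((p1, p4, r1, r4), (p2, r2, q1, q4, q2)), rfl⟩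
    · rw [tt_fromBlocks, if_neg hc, zero_mul]
  · intro x
    simp only [mk]
    rw [hsw, tt_fromBlocks, tt_fromBlocks, if_pos rfl, if_pos fromBlocks_zero]

/-- `tt` only depends on the set of indices of the first block -/
theorem tt_congr (A B : CF F) (e : α ⊕ β ≃ ι) (e' : γ ⊕ δ ≃ ι)
    (h : ∀ i, (e.symm i).isLeft = (e'.symm i).isLeft) (M : Matrix ι ι F) :
    tt A B (M.submatrix e e) = tt A B (M.submatrix e' e') := by
  have h1 : ∀ a, (e'.symm (e (Sum.inl a))).isLeft := fun a => by rw [← h]; simp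
  have h2 : ∀ c, (e.symm (e' (Sum.inl c))).isLeft := fun a => by rw [h]; simp
  have h3 : ∀ b, (e'.symm (e (Sum.inr b))).isRight := fun a => by
    rw [← Sum.bnot_isLeft, ← h]; simp
  have h4 : ∀ d, (e.symm (e' (Sum.inr d))).isRight := fun a => by
    rw [← Sum.bnot_isLeft, h]; simp
  let f1 : α ≃ γ :=
    { toFun := fun a => (e'.symm (e (Sum.inl a))).getLeft (h1 a)
      invFun := fun c => (e.symm (e' (Sum.inl c))).getLeft (h2 c)
      left_inv := fun a => by simp
      right_inv := fun a => by simp }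
  let f2 : β ≃ δ :=
    { toFun := fun a => (e'.symm (e (Sum.inr a))).getRight (h3 a)
      invFun := fun c => (e.symm (e' (Sum.inr c))).getRight (h4 c)
      left_inv := fun a => by simp
      right_inv := fun a => by simp }
  rw [← tt_sumCongr A B f1 f2]
  congr 1
  ext i j
  rcases i with i | i <;> rcases j with j | j <;> simp [f1, f2]

/-- splitting of an index set by two predicates -/
def split4 (P Q : ι → Prop) [DecidablePred P] [DecidablePred Q] :
    ({i // P i ∧ Q i} ⊕ {i // P i ∧ ¬ Q i}) ⊕ ({i // ¬ P i ∧ Q i} ⊕ {i // ¬ P i ∧ ¬ Q i}) ≃ ι where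
  toFun := Sum.elim (Sum.elim Subtype.val Subtype.val) (Sum.elim Subtype.val Subtype.val)
  invFun i := if hP : P i then
      (if hQ : Q i then Sum.inl (Sum.inl ⟨i, hP, hQ⟩) else Sum.inl (Sum.inr ⟨i, hP, hQ⟩))
    else (if hQ : Q i then Sum.inr (Sum.inl ⟨i, hP, hQ⟩) else Sum.inr (Sum.inr ⟨i, hP, hQ⟩))
  left_inv := by
    rintro ((⟨i, h1, h2⟩ | ⟨i, h1, h2⟩) | (⟨i, h1, h2⟩ | ⟨i, h1, h2⟩)) <;> simp [h1, h2]
  right_inv i := by
    by_cases h1 : P i <;> by_cases h2 : Q i <;> simp [h1, h2]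

def Cusp (A : CF F) : Prop :=
  ∀ (k l : ℕ) (a : Matrix (Fin k) (Fin k) F) (d : Matrix (Fin l) (Fin l) F), 0 < k → 0 < l →
    res A a d = 0

theorem Cusp.res_eq {A : CF F} (h : Cusp A) [Nonempty α] [Nonempty β] (a : Matrix α α F)
    (d : Matrix β β F) : res A a d = 0 := by
  rw [← res_submatrix A (Fintype.equivFin α).symm (Fintype.equivFin β).symm]
  exact h _ _ _ _ Fintype.card_pos Fintype.card_pos

theorem res_card {X : CF F} {a : Matrix α α F} {d : Matrix β β F} (h : res X a d ≠ 0) :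
    Fintype.card α + Fintype.card β = X.n := by
  obtain ⟨b, -, hb⟩ := Finset.exists_ne_zero_of_sum_ne_zero h
  simpa using X.card_eq hb

theorem mackey4_cusp {A X B Y : CF F} (hA : Cusp A) (hB : Cusp B) (hA0 : 0 < A.n) (hB0 : 0 < B.n)
    (h : ∑ x : Matrix α α F × Matrix β β F × Matrix γ γ F × Matrix δ δ F,
      Fintype.card (Matrix α δ F) * (res A x.1 x.2.1 * res X x.2.2.1 x.2.2.2 *
        conj (res B x.1 x.2.2.1 * res Y x.2.1 x.2.2.2)) ≠ 0) :
    (ip A B ≠ 0 ∧ ip X Y ≠ 0) ∨ ∃ k, ip (perp B X k) (perp A Y k) ≠ 0 := by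
  rw [← Finset.mul_sum] at h
  replace h := right_ne_zero_of_mul h
  obtain ⟨x0, -, hx⟩ := Finset.exists_ne_zero_of_sum_ne_zero h
  have c1 := res_card (left_ne_zero_of_mul (left_ne_zero_of_mul hx))
  have c2 := res_card (right_ne_zero_of_mul (left_ne_zero_of_mul hx))
  have hx' : res B x0.1 x0.2.2.1 * res Y x0.2.1 x0.2.2.2 ≠ 0 := by
    simpa using right_ne_zero_of_mul hx
  have c3 := res_card (left_ne_zero_of_mul hx')
  rcases isEmpty_or_nonempty α with hα | hα
  · right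
    refine ⟨Fintype.card δ, ?_⟩
    rw [Fintype.card_eq_zero, zero_add] at c1 c3
    rw [ip_eq _ _ (ι := δ) rfl]
    refine mul_ne_zero (inv_ne_zero (gl_ne _)) ?_
    simp only [ev_perp B X (α := γ) (β := δ) c3 rfl, ev_perp A Y (α := β) (β := δ) c1 rfl,
      map_mul, mul_mul_mul_comm, ← Finset.mul_sum]
    refine mul_ne_zero (mul_ne_zero ?_ ?_) ?_
    · exact inv_ne_zero (mul_ne_zero (gl_ne _) (pow_ne_zero _ card_ne))
    · simpa using mul_ne_zero (gl_ne (F := F) A.n) (pow_ne_zero (A.n * Fintype.card δ)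
        (card_ne (F := F)))
    · let _ : Unique (Matrix α α F) := ⟨⟨0⟩, fun b => Subsingleton.elim _ _⟩
      simp only [Fintype.sum_prod_type, Fintype.sum_unique, res_empty'] at h
      convert h using 1
      simp only [map_sum, map_mul, Complex.conj_conj, Finset.sum_mul, Finset.mul_sum]
      rw [Finset.sum_comm]
      refine Finset.sum_congr rfl fun b _ => ?_
      rw [Finset.sum_comm]
      refine Finset.sum_congr rfl fun c _ => Finset.sum_congr rfl fun d _ => ?_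
      ring
  · left
    have hβ : IsEmpty β := by
      by_contra hβ
      rw [not_isEmpty_iff] at hβ
      exact left_ne_zero_of_mul (left_ne_zero_of_mul hx) (hA.res_eq _ _)
    have hγ : IsEmpty γ := by
      by_contra hγ
      rw [not_isEmpty_iff] at hγ
      exact left_ne_zero_of_mul hx' (hB.res_eq _ _)
    rw [Fintype.card_eq_zero (α := β), add_zero] at c1
    rw [Fintype.card_eq_zero (α := γ), zero_add] at c2
    let _ : Unique (Matrix β β F) := ⟨⟨0⟩, fun b => Subsingleton.elim _ _⟩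
    let _ : Unique (Matrix γ γ F) := ⟨⟨0⟩, fun b => Subsingleton.elim _ _⟩
    simp only [Fintype.sum_prod_type, Fintype.sum_unique, res_empty', res_empty] at h
    have h2 : (∑ a : Matrix α α F, A.ev a * conj (B.ev a)) *
        (∑ d : Matrix δ δ F, X.ev d * conj (Y.ev d)) ≠ 0 := by
      convert h using 1
      rw [Finset.sum_mul_sum]
      refine Finset.sum_congr rfl fun c _ => Finset.sum_congr rfl fun d _ => ?_
      rw [map_mul]
      ring
    rw [ip_eq _ _ c1, ip_eq _ _ c2]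
    exact ⟨mul_ne_zero (inv_ne_zero (gl_ne _)) (left_ne_zero_of_mul h2),
      mul_ne_zero (inv_ne_zero (gl_ne _)) (right_ne_zero_of_mul h2)⟩

theorem mackey_split {A X B Y : CF F} (hA : Cusp A) (hB : Cusp B) (hA0 : 0 < A.n) (hB0 : 0 < B.n)
    (e : α ⊕ β ≃ ι) (e' : γ ⊕ δ ≃ ι)
    (h : ∑ M : Matrix ι ι F, tt A X (M.submatrix e e) * conj (tt B Y (M.submatrix e' e')) ≠ 0) :
    (ip A B ≠ 0 ∧ ip X Y ≠ 0) ∨ ∃ k, ip (perp B X k) (perp A Y k) ≠ 0 := by
  let P : ι → Prop := fun i => (e.symm i).isLeft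
  let Q : ι → Prop := fun i => (e'.symm i).isLeft
  refine mackey4_cusp hA hB hA0 hB0 (α := {i // P i ∧ Q i}) (β := {i // P i ∧ ¬ Q i})
    (γ := {i // ¬ P i ∧ Q i}) (δ := {i // ¬ P i ∧ ¬ Q i}) ?_
  rw [← mackey4, ← sum_submatrix (split4 P Q)]
  convert h using 2 with M
  rw [tt_congr A X e (split4 P Q), tt_congr B Y e' ((Equiv.sumSumSumComm _ _ _ _).trans (split4 P Q))]
  · rfl
  · intro i
    by_cases h1 : P i <;> by_cases h2 : Q i <;> simp [split4, h1, h2] <;> simpa [Q] using h2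
  · intro i
    by_cases h1 : P i <;> by_cases h2 : Q i <;> simp [split4, h1, h2] <;> simpa [P] using h1

theorem tt_conj_upper {n : ℕ} (A B : CF F) (e : α ⊕ β ≃ Fin n)
    (he : ∀ i j, e (Sum.inl i) < e (Sum.inr j)) {u : GL (Fin n) F} (hu : u ∈ upperTriangularGL n F)
    (M : Matrix (Fin n) (Fin n) F) :
    tt A B ((((u⁻¹ : GL _ F) : Matrix _ _ F) * M * (u : Matrix _ _ F)).submatrix e e) =
      tt A B (M.submatrix e e) := by
  rw [← submatrix_mul_equiv _ _ e e e, ← submatrix_mul_equiv _ _ e e e]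
  apply tt_conj
  · rw [submatrix_mul_equiv]; simp
  · ext i j
    exact GLn.mem_upperTriangularGL.1 hu _ _ (he j i)
  · ext i j
    exact GLn.mem_upperTriangularGL.1 (inv_mem hu) _ _ (he j i)

theorem conj_permGL (σ : Equiv.Perm ι) (M : Matrix ι ι F) :
    (((GLn.permGL F σ)⁻¹ : GL ι F) : Matrix ι ι F) * M * (GLn.permGL F σ : Matrix ι ι F) =
      M.submatrix σ σ := by
  ext i j
  rw [← map_inv, GLn.coe_permGL, GLn.coe_permGL, SLn.mul_monoMat_apply]
  have := SLn.monoMat_mul_apply σ⁻¹ (1 : ι → F) M (σ i) (σ j)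
  simpa using this

/-- the standard splitting of `Fin n` -/
def stdSplit {a b n : ℕ} (h : a + b = n) : Fin a ⊕ Fin b ≃ Fin n :=
  finSumFinEquiv.trans (finCongr h)

theorem stdSplit_inl {a b n : ℕ} (h : a + b = n) (i : Fin a) :
    (stdSplit h (Sum.inl i)).val = i.val := rfl

theorem stdSplit_inr {a b n : ℕ} (h : a + b = n) (i : Fin b) :
    (stdSplit h (Sum.inr i)).val = a + i.val := rfl

theorem stdSplit_lt {a b n : ℕ} (h : a + b = n) (i : Fin a) (j : Fin b) :
    stdSplit h (Sum.inl i) < stdSplit h (Sum.inr j) := by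
  rw [Fin.lt_def, stdSplit_inl, stdSplit_inr]
  omega

theorem mackey {A X B Y : CF F} (hA : Cusp A) (hB : Cusp B) (hA0 : 0 < A.n) (hB0 : 0 < B.n)
    (h : ip (A * X) (B * Y) ≠ 0) :
    (ip A B ≠ 0 ∧ ip X Y ≠ 0) ∨ ∃ k, ip (perp B X k) (perp A Y k) ≠ 0 := by
  have hn : B.n + Y.n = A.n + X.n := (n_eq_of_ip h).symm
  rw [ip_mul' A X _ (stdSplit (rfl : A.n + X.n = _)) (by simp) (by simp)] at h
  replace h := right_ne_zero_of_mul h
  simp only [ev_mul B Y (stdSplit hn) (by simp) (by simp), map_mul, map_sum, Finset.mul_sum] at h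
  rw [Finset.sum_comm] at h
  obtain ⟨x, -, hx⟩ := Finset.exists_ne_zero_of_sum_ne_zero h
  simp only [mul_left_comm _ (conj (pc F B.n Y.n)⁻¹), ← Finset.mul_sum] at hx
  replace hx := right_ne_zero_of_mul hx
  obtain ⟨u, b, σ, hu, -, hb, rfl⟩ := GLn.bruhat x
  refine mackey_split hA hB hA0 hB0 (stdSplit (rfl : A.n + X.n = _)) ((stdSplit hn).trans σ) ?_
  rw [← sum_conj (P := (u : Matrix _ _ F)) (Q := ((u⁻¹ : GL _ F) : Matrix _ _ F)) (by simp)]
  convert hx using 2 with M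
  rw [tt_conj_upper A X _ (stdSplit_lt _) hu]
  congr 2
  rw [← tt_conj_upper B Y _ (stdSplit_lt _) (inv_mem hb)]
  congr 1
  change ((((u⁻¹ : GL _ F) : Matrix _ _ F) * M * (u : Matrix _ _ F)).submatrix σ σ).submatrix _ _ = _
  rw [← conj_permGL]
  congr 1
  simp [Matrix.mul_assoc]

/-- cuspidal irreducible characters -/
def IsCu (A : CF F) : Prop := IsIr A ∧ Cusp A ∧ 0 < A.n

theorem isCh_prod {S : Multiset (CF F)} (h : ∀ A ∈ S, IsCh A) : IsCh S.prod := by
  induction S using Multiset.induction_on with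
  | empty => exact isIr_one.isCh
  | cons a S ih =>
    rw [Multiset.prod_cons]
    exact (h a (by simp)).mul (ih fun A hA => h A (by simp [hA]))

theorem prod_n (S : Multiset (CF F)) : S.prod.n = (S.map CF.n).sum := by
  induction S using Multiset.induction_on with
  | empty => rfl
  | cons a S ih => simp [ih]

theorem IsIr.eq_one {X : CF F} (hX : IsIr X) (h : X.n = 0) : X = 1 := by
  refine eq_of_chr h ?_
  have : IsEmpty (Fin X.n) := by rw [h]; infer_instance
  rw [Char.irr_eq_one_of_const hX fun g => by rw [Subsingleton.elim g 1]]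
  exact funext fun g => (ev_one _).symm

theorem exists_support (X : CF F) (hX : IsIr X) :
    ∃ S : Multiset (CF F), (∀ A ∈ S, IsCu A) ∧ ip S.prod X ≠ 0 := by
  induction hn : X.n using Nat.strong_induction_on generalizing X with
  | _ n ih =>
  by_cases h0 : X.n = 0
  · refine ⟨0, by simp, ?_⟩
    rw [hX.eq_one h0, Multiset.prod_zero, isIr_one.ip_self]
    exact one_ne_zero
  by_cases hc : Cusp X
  · refine ⟨{X}, fun A hA => ?_, ?_⟩
    · rw [Multiset.mem_singleton.1 hA]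
      exact ⟨hX, hc, Nat.pos_of_ne_zero h0⟩
    · rw [Multiset.prod_singleton, hX.ip_self]
      exact one_ne_zero
  · simp only [Cusp, not_forall] at hc
    obtain ⟨k, l, a, d, hk, hl, h⟩ := hc
    obtain ⟨A, B, hA, hB, e1, e2, h1⟩ := exists_ir_of_res h
    have e3 := n_eq_of_ip h1
    rw [Fintype.card_fin] at e1 e2
    rw [mul_n] at e3
    obtain ⟨S, hS, h2⟩ := ih A.n (by omega) A hA rfl
    obtain ⟨T, hT, h3⟩ := ih B.n (by omega) B hB rfl
    have cS := isCh_prod fun A hA => (hS A hA).1.isCh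
    have cT := isCh_prod fun A hA => (hT A hA).1.isCh
    refine ⟨S + T, fun C hC => (Multiset.mem_add.1 hC).elim (hS C) (hT C), ?_⟩
    rw [Multiset.prod_add]
    have h4 := ip_mul_mono hA.isCh hX.isCh cT hB h1 h3
    rw [mul_comm] at h4 ⊢
    exact ip_mul_mono cT hX.isCh cS hA h4 h2

theorem support_unique (S T : Multiset (CF F)) (hS : ∀ A ∈ S, IsCu A) (hT : ∀ A ∈ T, IsCu A)
    (h : ip S.prod T.prod ≠ 0) : S = T := by
  induction hn : S.prod.n using Nat.strong_induction_on generalizing S T with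
  | _ n ih =>
  have e := n_eq_of_ip h
  rcases S.empty_or_exists_mem with rfl | ⟨A, hA⟩
  · rcases T.empty_or_exists_mem with rfl | ⟨B, hB⟩
    · rfl
    · obtain ⟨T', rfl⟩ := Multiset.exists_cons_of_mem hB
      have := (hT B hB).2.2
      simp at e
      omega
  obtain ⟨S', rfl⟩ := Multiset.exists_cons_of_mem hA
  have a0 := (hS A hA).2.2
  rcases T.empty_or_exists_mem with rfl | ⟨B, hB⟩
  · simp at e
    omega
  obtain ⟨T', rfl⟩ := Multiset.exists_cons_of_mem hB
  have b0 := (hT B hB).2.2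
  have hS' : ∀ C ∈ S', IsCu C := fun C hC => hS C (by simp [hC])
  have hT' : ∀ C ∈ T', IsCu C := fun C hC => hT C (by simp [hC])
  have cS := isCh_prod fun A hA => (hS' A hA).1.isCh
  have cT := isCh_prod fun A hA => (hT' A hA).1.isCh
  simp only [Multiset.prod_cons, mul_n] at h hn e
  rcases mackey (hS A hA).2.1 (hT B hB).2.1 a0 b0 h with ⟨h1, h2⟩ | ⟨k, h1⟩
  · rw [(hS A hA).1.eq_of_ip (hT B hB).1 h1, ih _ (by omega) S' T' hS' hT' h2 rfl]
  · obtain ⟨Z, hZ, h2, h3⟩ := exists_ir_common h1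
    have hk : k = Z.n := n_eq_of_ip h2
    subst hk
    obtain ⟨U, hU, h4⟩ := exists_support Z hZ
    have cU := isCh_prod fun A hA => (hU A hA).1.isCh
    have h5 := ip_mul_mono (hT B hB).1.isCh cS cU hZ (by rw [ip_perp]; exact ip_ne_comm h2) h4
    have h6 := ip_mul_mono (hS A hA).1.isCh cT cU hZ (by rw [ip_perp]; exact ip_ne_comm h3) h4
    rw [← Multiset.prod_cons] at h5 h6
    have e1 := ih _ (by omega) S' (B ::ₘ U) hS' (fun C hC => by
      rcases Multiset.mem_cons.1 hC with rfl | hC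
      exacts [hT _ hB, hU C hC]) (ip_ne_comm h5) rfl
    have e2 := ih _ (by omega) T' (A ::ₘ U) hT' (fun C hC => by
      rcases Multiset.mem_cons.1 hC with rfl | hC
      exacts [hS _ hA, hU C hC]) (ip_ne_comm h6) rfl
    rw [e1, e2, Multiset.cons_swap]

end Cfsg.Agent.HC
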