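/-
Gelfand-Graev multiplicities: multiplicativity and the degree of cuspidal characters.
-/
import Cfsg.Agent.Lib.GLn.HC3
import Cfsg.Agent.Lib.SLn.LinAux

set_option autoImplicit false
set_option linter.unusedSectionVars false

namespace Cfsg.Agent.HC

open Matrix Cfsg
open scoped MatrixGroups ComplexConjugate

variable {F : Type*} [Field F] [Fintype F] [DecidableEq F]
variable {ι κ α β γ δ : Type*} [Fintype ι] [Fintype κ] [Fintype α] [Fintype β] [Fintype γ]
  [Fintype δ] [DecidableEq ι] [DecidableEq κ] [DecidableEq α] [DecidableEq β] [DecidableEq γ]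
  [DecidableEq δ]

/-- unitriangular matrices -/
def IsU {n : ℕ} (u : Matrix (Fin n) (Fin n) F) : Prop :=
  (∀ i j, j < i → u i j = 0) ∧ ∀ i, u i i = 1

noncomputable instance {n : ℕ} (u : Matrix (Fin n) (Fin n) F) : Decidable (IsU u) :=
  Classical.dec _

/-- sum of the entries next to the diagonal -/
def sd {n : ℕ} (u : Matrix (Fin n) (Fin n) F) : F :=
  ∑ i : Fin n, ∑ j : Fin n, if i.val + 1 = j.val then u i j else 0

noncomputable def wU (ψ : AddChar F ℂ) {n : ℕ} (u : Matrix (Fin n) (Fin n) F) : ℂ :=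
  if IsU u then conj (ψ (sd u)) else 0

theorem IsU.one {n : ℕ} : IsU (1 : Matrix (Fin n) (Fin n) F) :=
  ⟨fun _ _ h => one_apply_ne h.ne', fun _ => one_apply_eq _⟩

theorem IsU.mul {n : ℕ} {u v : Matrix (Fin n) (Fin n) F} (hu : IsU u) (hv : IsU v) : IsU (u * v) :=
  GLn.unitri_mul hu.1 hu.2 hv.1 hv.2

theorem IsU.isUnit {n : ℕ} {u : Matrix (Fin n) (Fin n) F} (hu : IsU u) : IsUnit u := by
  rw [isUnit_iff_isUnit_det, SLn.det_of_unitriangular hu.1 hu.2]
  exact isUnit_one

theorem sd_one {n : ℕ} : sd (1 : Matrix (Fin n) (Fin n) F) = 0 := by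
  refine Finset.sum_eq_zero fun i _ => Finset.sum_eq_zero fun j _ => ?_
  split_ifs with h
  · exact one_apply_ne (by rintro rfl; omega)
  · rfl

theorem sd_add {n : ℕ} (u v : Matrix (Fin n) (Fin n) F) : sd (u + v) = sd u + sd v := by
  simp only [sd, ← Finset.sum_add_distrib]
  refine Finset.sum_congr rfl fun i _ => Finset.sum_congr rfl fun j _ => ?_
  split_ifs <;> simp

theorem sd_mul {n : ℕ} {u v : Matrix (Fin n) (Fin n) F} (hu : IsU u) (hv : IsU v) :
    sd (u * v) = sd u + sd v := by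
  rw [← sd_add]
  refine Finset.sum_congr rfl fun i _ => Finset.sum_congr rfl fun j _ => ?_
  split_ifs with h
  · have hij : i ≠ j := by rintro rfl; omega
    rw [mul_apply, Fintype.sum_eq_add i j hij, hu.2, hv.2, Matrix.add_apply]
    · ring
    · rintro k ⟨h1, h2⟩
      rcases lt_or_gt_of_ne h1 with h3 | h3
      · rw [hu.1 i k h3, zero_mul]
      · rw [hv.1 k j (by
          have := Fin.val_ne_of_ne h2
          rw [Fin.lt_def] at h3 ⊢
          omega), mul_zero]
  · rfl

theorem sd_single {n : ℕ} (i j : Fin n) (t : F) :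
    sd (single i j t) = if i.val + 1 = j.val then t else 0 := by
  rw [sd, Finset.sum_eq_single i, Finset.sum_eq_single j]
  · simp
  · intro b _ hb
    simp [hb.symm]
  · simp
  · intro b _ hb
    simp [hb.symm]
  · simp

/-- the group of unitriangular matrices -/
def UG (F : Type*) [Field F] [Fintype F] [DecidableEq F] (n : ℕ) : Subgroup (GL (Fin n) F) where
  carrier := {x | IsU (x : Matrix (Fin n) (Fin n) F)}
  mul_mem' := fun ha hb => IsU.mul ha hb
  one_mem' := IsU.one
  inv_mem' := fun {x} hx => by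
    have h1 : ∀ k : ℕ, IsU ((x ^ k : GL (Fin n) F) : Matrix (Fin n) (Fin n) F) := by
      intro k
      induction k with
      | zero => exact IsU.one
      | succ k ih => rw [pow_succ]; exact IsU.mul ih hx
    have h2 : x⁻¹ = x ^ (orderOf x - 1) := by
      rw [inv_eq_iff_mul_eq_one, ← pow_succ', Nat.sub_add_cancel (orderOf_pos x), pow_orderOf_eq_one]
    change IsU ((x⁻¹ : GL (Fin n) F) : Matrix (Fin n) (Fin n) F)
    rw [h2]
    exact h1 _

theorem mem_UG {n : ℕ} {x : GL (Fin n) F} : x ∈ UG F n ↔ IsU (x : Matrix (Fin n) (Fin n) F) :=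
  Iff.rfl

theorem wU_conj (ψ : AddChar F ℂ) {n : ℕ} {u : GL (Fin n) F} (hu : u ∈ UG F n)
    (M : Matrix (Fin n) (Fin n) F) :
    wU ψ (((u⁻¹ : GL _ F) : Matrix _ _ F) * M * (u : Matrix _ _ F)) = wU ψ M := by
  have hu' : IsU ((u⁻¹ : GL _ F) : Matrix (Fin n) (Fin n) F) := inv_mem hu
  by_cases hM : IsU M
  · rw [wU, wU, if_pos hM, if_pos ((hu'.mul hM).mul hu), sd_mul (hu'.mul hM) hu, sd_mul hu' hM,
      add_right_comm, ← sd_mul hu' hu]
    simp [sd_one]
  · rw [wU, wU, if_neg hM, if_neg]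
    intro h
    apply hM
    have := ((mem_UG.1 hu).mul h).mul hu'
    simpa [Matrix.mul_assoc] using this

theorem wU_add_single (ψ : AddChar F ℂ) {n : ℕ} {i j : Fin n} (h : i.val + 1 = j.val) (t : F)
    (M : Matrix (Fin n) (Fin n) F) : wU ψ (M + single i j t) = wU ψ M * conj (ψ t) := by
  have : IsU (M + single i j t) ↔ IsU M := by
    refine and_congr (forall₃_congr fun a b hab => ?_) (forall_congr' fun a => ?_)
    · rw [Matrix.add_apply, single_apply_of_ne, add_zero]
      rintro ⟨rfl, rfl⟩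
      rw [Fin.lt_def] at hab
      omega
    · rw [Matrix.add_apply, single_apply_of_ne, add_zero]
      rintro ⟨rfl, rfl⟩
      omega
  unfold wU
  simp only [this]
  split_ifs
  · rw [sd_add, sd_single, if_pos h, AddChar.map_add_eq_mul, map_mul]
  · rw [zero_mul]

/-- the corner entry -/
def lk {a b : ℕ} (z : Matrix (Fin a) (Fin b) F) : F :=
  ∑ i : Fin a, ∑ j : Fin b, if i.val + 1 = a + j.val then z i j else 0

theorem wU_blocks (ψ : AddChar F ℂ) {a b n : ℕ} (h : a + b = n) (u : Matrix (Fin a) (Fin a) F)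
    (z : Matrix (Fin a) (Fin b) F) (c : Matrix (Fin b) (Fin a) F) (v : Matrix (Fin b) (Fin b) F) :
    wU ψ ((fromBlocks u z c v).submatrix (stdSplit h).symm (stdSplit h).symm) =
      if c = 0 then wU ψ u * wU ψ v * conj (ψ (lk z)) else 0 := by
  have h1 : IsU ((fromBlocks u z c v).submatrix (stdSplit h).symm (stdSplit h).symm) ↔
      c = 0 ∧ IsU u ∧ IsU v := by
    unfold IsU
    simp only [(stdSplit h).surjective.forall, submatrix_apply, Equiv.symm_apply_apply,
      Sum.forall, fromBlocks_apply₁₁, fromBlocks_apply₁₂, fromBlocks_apply₂₁, fromBlocks_apply₂₂,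
      Fin.lt_def, stdSplit_inl, stdSplit_inr]
    constructor
    · rintro ⟨⟨h1, h2⟩, h3, h4⟩
      refine ⟨?_, ⟨fun i j hij => (h1 i).1 j hij, h3⟩, fun i j hij => (h2 i).2 j (by omega), h4⟩
      ext i j
      exact (h2 i).1 j (by omega)
    · rintro ⟨rfl, ⟨h1, h2⟩, h3, h4⟩
      exact ⟨⟨fun i => ⟨h1 i, fun j hj => by omega⟩, fun i => ⟨fun _ _ => rfl,
        fun j hj => h3 i j (by omega)⟩⟩, h2, h4⟩
  have h2 : sd ((fromBlocks u z c v).submatrix (stdSplit h).symm (stdSplit h).symm) =
      sd u + sd v + lk z := by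
    unfold sd lk
    simp only [← (stdSplit h).sum_comp, Fintype.sum_sum_type, submatrix_apply,
      Equiv.symm_apply_apply, fromBlocks_apply₁₁, fromBlocks_apply₁₂, fromBlocks_apply₂₁,
      fromBlocks_apply₂₂, stdSplit_inl, stdSplit_inr, Finset.sum_add_distrib]
    have e1 : ∀ (i : Fin b) (j : Fin a), (a + i.val + 1 = j.val) ↔ False := by
      intro i j; simp; omega
    have e2 : ∀ i j : Fin b, (a + i.val + 1 = a + j.val) ↔ (i.val + 1 = j.val) := by
      intro i j; omega
    simp only [e1, e2, if_false, Finset.sum_const_zero]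
    ring_nf
  unfold wU
  simp only [h1, h2]
  by_cases hc : c = 0 <;> by_cases hu : IsU u <;> by_cases hv : IsU v <;>
    simp [hc, hu, hv, AddChar.map_add_eq_mul]

theorem sum_split {a b n : ℕ} (h : a + b = n) (f : Matrix (Fin n) (Fin n) F → ℂ) :
    ∑ M, f M = ∑ u : Matrix (Fin a) (Fin a) F, ∑ v : Matrix (Fin b) (Fin b) F,
      ∑ z : Matrix (Fin a) (Fin b) F, ∑ c : Matrix (Fin b) (Fin a) F,
        f ((fromBlocks u z c v).submatrix (stdSplit h).symm (stdSplit h).symm) := by
  rw [← sum_submatrix (stdSplit h).symm, sum_fromBlocks]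

/-- the number of unitriangular matrices -/
noncomputable def nU (F : Type*) [Field F] [Fintype F] [DecidableEq F] (n : ℕ) : ℂ :=
  ∑ M : Matrix (Fin n) (Fin n) F, wU 1 M

theorem nU_add {a b n : ℕ} (h : a + b = n) :
    nU F n = nU F a * nU F b * (Fintype.card F : ℂ) ^ (a * b) := by
  unfold nU
  rw [sum_split h, Finset.sum_mul_sum]
  simp [wU_blocks, card_mat, Finset.sum_mul, mul_comm (_ ^ _ : ℂ)]

theorem isU_fin_one (u : Matrix (Fin 1) (Fin 1) F) : IsU u ↔ u = 1 := by
  refine ⟨fun h => ?_, fun h => h ▸ IsU.one⟩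
  ext i j
  rw [Subsingleton.elim i 0, Subsingleton.elim j 0, h.2, one_apply_eq]

theorem wU_fin_one (ψ : AddChar F ℂ) (u : Matrix (Fin 1) (Fin 1) F) :
    wU ψ u = if u = 1 then 1 else 0 := by
  unfold wU
  simp only [isU_fin_one]
  split_ifs with h
  · simp [h, sd_one]
  · rfl

theorem wU_fin_zero (ψ : AddChar F ℂ) (u : Matrix (Fin 0) (Fin 0) F) : wU ψ u = 1 := by
  rw [Subsingleton.elim u 1, wU, if_pos IsU.one, sd_one]
  simp

theorem nU_eq (n : ℕ) : nU F n = ∏ i ∈ Finset.range n, (Fintype.card F : ℂ) ^ i := by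
  induction n with
  | zero =>
    let _ : Unique (Matrix (Fin 0) (Fin 0) F) := ⟨⟨0⟩, fun b => Subsingleton.elim _ _⟩
    simp [nU, wU_fin_zero]
  | succ n ih =>
    rw [nU_add (add_comm 1 n), ih, Finset.prod_range_succ, one_mul]
    simp [nU, wU_fin_one]

theorem nU_ne (n : ℕ) : nU F n ≠ 0 := by
  rw [nU_eq]
  exact Finset.prod_ne_zero_iff.2 fun i _ => pow_ne_zero _ card_ne

/-- the multiplicity of the Gelfand-Graev character -/
noncomputable def gg (ψ : AddChar F ℂ) (A : CF F) : ℂ :=
  (nU F A.n)⁻¹ * ∑ M : Matrix (Fin A.n) (Fin A.n) F, A.ev M * wU ψ M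

theorem gg_one (ψ : AddChar F ℂ) : gg ψ 1 = 1 := by
  let _ : Unique (Matrix (Fin 0) (Fin 0) F) := ⟨⟨0⟩, fun b => Subsingleton.elim _ _⟩
  change (nU F 0)⁻¹ * ∑ M : Matrix (Fin 0) (Fin 0) F, (1 : CF F).ev M * wU ψ M = 1
  simp [nU_eq, wU_fin_zero, ev_one]

theorem sum_tt_wU_eq_zero {ψ : AddChar F ℂ} (hψ : ψ ≠ 1) (A B : CF F) {n : ℕ} (e : α ⊕ β ≃ Fin n)
    {i : α} {j : β} (h : (e (Sum.inl i)).val + 1 = (e (Sum.inr j)).val) :
    ∑ M : Matrix (Fin n) (Fin n) F, tt A B (M.submatrix e e) * wU ψ M = 0 := by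
  obtain ⟨t, ht⟩ : ∃ t, ψ t ≠ 1 := by
    by_contra h1
    push Not at h1
    exact hψ (by ext t; simp [h1 t])
  have h1 := Fintype.sum_equiv (Equiv.addRight (single (e (Sum.inl i)) (e (Sum.inr j)) t))
    (fun M : Matrix (Fin n) (Fin n) F => (tt A B (M.submatrix e e) * wU ψ M) * conj (ψ t))
    (fun M => tt A B (M.submatrix e e) * wU ψ M) fun M => by
      simp only [Equiv.coe_addRight]
      rw [wU_add_single ψ h, mul_assoc]
      congr 1
      unfold tt
      have e1 : ((M + single (e (Sum.inl i)) (e (Sum.inr j)) t).submatrix e e).toBlocks₂₁ =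
          (M.submatrix e e).toBlocks₂₁ := by
        ext a b; simp [toBlocks₂₁, single_apply]
      have e2 : ((M + single (e (Sum.inl i)) (e (Sum.inr j)) t).submatrix e e).toBlocks₁₁ =
          (M.submatrix e e).toBlocks₁₁ := by
        ext a b; simp [toBlocks₁₁, single_apply]
      have e3 : ((M + single (e (Sum.inl i)) (e (Sum.inr j)) t).submatrix e e).toBlocks₂₂ =
          (M.submatrix e e).toBlocks₂₂ := by
        ext a b; simp [toBlocks₂₂, single_apply]
      rw [e1, e2, e3]
  rw [← Finset.sum_mul] at h1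
  by_contra h2
  apply ht
  have h3 := (mul_eq_left₀ h2).1 h1
  simpa using congrArg conj h3

/-- the opposite splitting -/
def topSplit {a b n : ℕ} (h : b + a = n) : Fin a ⊕ Fin b ≃ Fin n :=
  (Equiv.sumComm _ _).trans (stdSplit h)

theorem sum_tt_wU_top (ψ : AddChar F ℂ) (A B : CF F) {a b n : ℕ} (h : b + a = n) :
    ∑ M : Matrix (Fin n) (Fin n) F, tt A B (M.submatrix (topSplit h) (topSplit h)) * wU ψ M =
      (∑ M : Matrix (Fin a) (Fin a) F, A.ev M * wU ψ M) *
        ∑ M : Matrix (Fin b) (Fin b) F, B.ev M * wU ψ M := by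
  rw [sum_split h, mul_comm, Finset.sum_mul_sum]
  refine Finset.sum_congr rfl fun u _ => Finset.sum_congr rfl fun v _ => ?_
  have : ∀ (z : Matrix (Fin b) (Fin a) F) (c : Matrix (Fin a) (Fin b) F),
      ((fromBlocks u z c v).submatrix (stdSplit h).symm (stdSplit h).symm).submatrix
        (topSplit h) (topSplit h) = fromBlocks v c z u := by
    intro z c
    ext i j
    rcases i with i | i <;> rcases j with j | j <;> simp [topSplit]
  simp only [this, tt_fromBlocks, wU_blocks]
  simp [lk]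
  ring

theorem isLeft_of_closed {a b n : ℕ} (h : b + a = n) (e : Fin a ⊕ Fin b ≃ Fin n)
    (he : ∀ i j, (e (Sum.inl i)).val + 1 ≠ (e (Sum.inr j)).val) (i : Fin a) :
    b ≤ (e (Sum.inl i)).val := by
  have h1 : ∀ (d : ℕ) (j : Fin n), j.val = (e (Sum.inl i)).val + d → (e.symm j).isLeft := by
    intro d
    induction d with
    | zero =>
      intro j hj
      rw [Fin.ext hj]; simp
    | succ d ih =>
      intro j hj
      have h2 := ih ⟨j.val - 1, by omega⟩ (by simp; omega)
      obtain ⟨k, hk⟩ := Sum.isLeft_iff.1 h2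
      obtain ⟨j', rfl⟩ := e.surjective j
      rcases j' with j' | j'
      · simp
      · exfalso
        apply he k j'
        rw [← hk, Equiv.apply_symm_apply]
        simp
        omega
  have h2 : (Finset.Ici (e (Sum.inl i))).card ≤ (Finset.univ : Finset (Fin a)).card := by
    refine Finset.card_le_card_of_surjOn (fun k => e (Sum.inl k)) fun j hj => ?_
    have h3 := h1 (j.val - (e (Sum.inl i)).val) j (by
      have : (e (Sum.inl i)).val ≤ j.val := by simpa using hj
      omega)
    obtain ⟨k, hk⟩ := Sum.isLeft_iff.1 h3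
    exact ⟨k, by simp, by simp [← hk]⟩
  simp at h2
  omega

theorem isLeft_eq_top {a b n : ℕ} (h : b + a = n) (e : Fin a ⊕ Fin b ≃ Fin n)
    (he : ∀ i, b ≤ (e (Sum.inl i)).val) (i : Fin n) :
    (e.symm i).isLeft = ((topSplit h).symm i).isLeft := by
  let f : Fin a → Fin a := fun k => ⟨(e (Sum.inl k)).val - b, by have := he k; omega⟩
  have hf : ∀ k, e (Sum.inl k) = topSplit h (Sum.inl (f k)) := fun k => Fin.ext (by
    have := he k
    change _ = b + ((e (Sum.inl k)).val - b)
    omega)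
  have hinj : Function.Injective f := fun k k' hk => by
    have := (hf k).trans ((congrArg _ (congrArg _ hk)).trans (hf k').symm)
    simpa using this
  obtain ⟨j, rfl⟩ := e.surjective i
  rcases j with j | j
  · rw [Equiv.symm_apply_apply, hf, Equiv.symm_apply_apply]; rfl
  · rw [Equiv.symm_apply_apply]
    obtain ⟨k, hk⟩ := (topSplit h).surjective (e (Sum.inr j))
    rcases k with k | k
    · obtain ⟨k', rfl⟩ := (Finite.injective_iff_surjective.1 hinj) k
      rw [← hf] at hk
      simp at hk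
    · rw [← hk]; simp

theorem sum_isUnit [DecidablePred (IsUnit : Matrix κ κ F → Prop)] :
    ∑ M : Matrix κ κ F, (if IsUnit M then (1 : ℂ) else 0) = gl F (Fintype.card κ) := by
  rw [← sum_GL _ fun M hM => if_neg hM, ← card_GL]
  simp

theorem card_bigCell [DecidablePred (IsUnit : Matrix α α F → Prop)] (e e' : α ⊕ β ≃ ι) :
    ∑ x : GL ι F, (if IsUnit ((x : Matrix ι ι F).submatrix e' e).toBlocks₁₁ then (1 : ℂ) else 0) =
      pc F (Fintype.card α) (Fintype.card β) *
        (Fintype.card F : ℂ) ^ (Fintype.card α * Fintype.card β) := by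
  classical
  have h1 := sum_GL (fun M : Matrix ι ι F =>
    if IsUnit M ∧ IsUnit (M.submatrix e' e).toBlocks₁₁ then (1 : ℂ) else 0)
    (fun M hM => if_neg fun h => hM h.1)
  simp only [Units.isUnit, true_and] at h1
  rw [h1, ← Fintype.sum_equiv (Matrix.reindex e' e) (fun N : Matrix (α ⊕ β) (α ⊕ β) F =>
    if IsUnit N ∧ IsUnit N.toBlocks₁₁ then (1 : ℂ) else 0) _ (fun N => by simp),
    sum_fromBlocks]
  have h2 : ∀ a : Matrix α α F, ∑ d : Matrix β β F, ∑ b : Matrix α β F, ∑ c : Matrix β α F,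
      (if IsUnit (fromBlocks a b c d) ∧ IsUnit (fromBlocks a b c d).toBlocks₁₁ then (1 : ℂ) else 0)
      = (if IsUnit a then (1 : ℂ) else 0) * (gl F (Fintype.card β) *
        ((Fintype.card F : ℂ) ^ (Fintype.card α * Fintype.card β)) ^ 2) := by
    intro a
    by_cases ha : IsUnit a
    · obtain ⟨_⟩ := ha.nonempty_invertible
      simp only [toBlocks_fromBlocks₁₁, ha, and_true, if_true, one_mul,
        isUnit_fromBlocks_iff_of_invertible₁₁]
      rw [Finset.sum_comm]
      have h3 : ∀ b : Matrix α β F, ∑ d : Matrix β β F, ∑ c : Matrix β α F,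
          (if IsUnit (d - c * ⅟a * b) then (1 : ℂ) else 0) =
          Fintype.card (Matrix β α F) * gl F (Fintype.card β) := by
        intro b
        rw [Finset.sum_comm]
        have h4 : ∀ c : Matrix β α F, ∑ d : Matrix β β F,
            (if IsUnit (d - c * ⅟a * b) then (1 : ℂ) else 0) = gl F (Fintype.card β) := by
          intro c
          rw [← sum_isUnit]
          exact Fintype.sum_equiv (Equiv.subRight _) _ _ fun _ => rfl
        simp only [h4]
        simp
      simp only [h3, Finset.sum_const, Finset.card_univ, nsmul_eq_mul, card_mat]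
      push_cast
      rw [mul_comm (Fintype.card β)]
      ring
    · simp [ha]
  simp only [h2, ← Finset.sum_mul, sum_isUnit, pc]
  ring

theorem gg_mul {ψ : AddChar F ℂ} (hψ : ψ ≠ 1) (A B : CF F) : gg ψ (A * B) = gg ψ A * gg ψ B := by
  classical
  have h : B.n + A.n = A.n + B.n := add_comm _ _
  let e : Fin A.n ⊕ Fin B.n ≃ Fin (A.n + B.n) := stdSplit rfl
  let cn : GL (Fin (A.n + B.n)) F → Matrix (Fin A.n) (Fin A.n) F := fun x =>
    ((x : Matrix _ _ F).submatrix (topSplit h) e).toBlocks₁₁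
  have hcn : ∀ u x b : GL (Fin (A.n + B.n)) F, u ∈ upperTriangularGL _ F →
      b ∈ upperTriangularGL _ F → IsUnit (cn (u * x * b)) → IsUnit (cn x) := by
    intro u x b hu hb h1
    have h2 : cn (u * x * b) = ((u : Matrix _ _ F).submatrix (topSplit h) (topSplit h)).toBlocks₁₁
        * cn x * ((b : Matrix _ _ F).submatrix e e).toBlocks₁₁ := by
      simp only [cn, Units.val_mul]
      rw [← submatrix_mul_equiv _ _ (topSplit h) e e,
        ← submatrix_mul_equiv _ _ (topSplit h) (topSplit h) e]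
      have h3 : ((u : Matrix _ _ F).submatrix (topSplit h) (topSplit h)).toBlocks₁₂ = 0 := by
        ext i j
        exact GLn.mem_upperTriangularGL.1 hu _ _ (stdSplit_lt h j i)
      have h4 : ((b : Matrix _ _ F).submatrix e e).toBlocks₂₁ = 0 := by
        ext i j
        exact GLn.mem_upperTriangularGL.1 hb _ _ (stdSplit_lt rfl j i)
      conv_lhs =>
        rw [← fromBlocks_toBlocks ((u : Matrix _ _ F).submatrix (topSplit h) (topSplit h)),
          ← fromBlocks_toBlocks ((b : Matrix _ _ F).submatrix e e),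
          ← fromBlocks_toBlocks ((x : Matrix _ _ F).submatrix (topSplit h) e), h3, h4]
      simp [fromBlocks_multiply]
    rw [h2, isUnit_iff_isUnit_det, det_mul, det_mul] at h1
    rw [isUnit_iff_isUnit_det]
    exact isUnit_of_mul_isUnit_right (isUnit_of_mul_isUnit_left h1)
  have hK : ∀ x : GL (Fin (A.n + B.n)) F, ∑ M : Matrix (Fin (A.n + B.n)) (Fin (A.n + B.n)) F,
      tt A B ((((x⁻¹ : GL _ F) : Matrix _ _ F) * M * (x : Matrix _ _ F)).submatrix e e) * wU ψ M =
      (if IsUnit (cn x) then (1 : ℂ) else 0) *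
        ((∑ M : Matrix (Fin A.n) (Fin A.n) F, A.ev M * wU ψ M) *
        ∑ M : Matrix (Fin B.n) (Fin B.n) F, B.ev M * wU ψ M) := by
    intro x
    obtain ⟨u, b, σ, hu, hu1, hb, rfl⟩ := GLn.bruhat x
    have hu' : u ∈ UG F _ := ⟨GLn.mem_upperTriangularGL.1 hu, hu1⟩
    have h1 : ∑ M : Matrix (Fin (A.n + B.n)) (Fin (A.n + B.n)) F,
        tt A B (((((u * GLn.permGL F σ * b)⁻¹ : GL _ F) : Matrix _ _ F) * M *
          ((u * GLn.permGL F σ * b : GL _ F) : Matrix _ _ F)).submatrix e e) * wU ψ M =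
        ∑ M : Matrix (Fin (A.n + B.n)) (Fin (A.n + B.n)) F,
          tt A B (M.submatrix (e.trans σ) (e.trans σ)) * wU ψ M := by
      rw [← sum_conj (P := (u : Matrix _ _ F)) (Q := ((u⁻¹ : GL _ F) : Matrix _ _ F)) (by simp)
        (fun M => tt A B (M.submatrix (e.trans σ) (e.trans σ)) * wU ψ M)]
      refine Finset.sum_congr rfl fun M _ => ?_
      rw [wU_conj ψ hu', ← tt_conj_upper A B _ (stdSplit_lt _) (inv_mem hb)]
      congr 2
      change _ = ((((u⁻¹ : GL _ F) : Matrix _ _ F) * M * (u : Matrix _ _ F)).submatrix σ σ).submatrix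
        _ _
      rw [← conj_permGL]
      congr 1
      simp [Matrix.mul_assoc]
    rw [h1]
    have h2 : IsUnit (cn (u * GLn.permGL F σ * b)) ↔ IsUnit (cn (GLn.permGL F σ)) := by
      refine ⟨hcn _ _ _ hu hb, fun h2 => hcn u⁻¹ _ b⁻¹ (inv_mem hu) (inv_mem hb) ?_⟩
      simpa [mul_assoc] using h2
    have h3 : ∀ i j, cn (GLn.permGL F σ) i j =
        if topSplit h (Sum.inl i) = σ (e (Sum.inl j)) then 1 else 0 := fun i j => rfl
    by_cases h4 : ∀ i, B.n ≤ ((e.trans σ) (Sum.inl i)).val
    · rw [if_pos, one_mul, ← sum_tt_wU_top ψ A B h]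
      · exact Finset.sum_congr rfl fun M _ => by
          rw [tt_congr A B _ _ (isLeft_eq_top h _ h4)]
      · rw [h2]
        refine IsUnit.of_mul_eq_one_right (cn (GLn.permGL F σ))ᵀ ?_
        ext j k
        have h5 := h4 j
        let i0 : Fin A.n := ⟨(σ (e (Sum.inl j))).val - B.n, by
          have := (σ (e (Sum.inl j))).isLt
          change B.n ≤ (σ (e (Sum.inl j))).val at h5
          omega⟩
        have h6 : topSplit h (Sum.inl i0) = σ (e (Sum.inl j)) := Fin.ext (by
          change B.n + ((σ (e (Sum.inl j))).val - B.n) = _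
          change B.n ≤ (σ (e (Sum.inl j))).val at h5
          omega)
        rw [mul_apply, Finset.sum_eq_single i0]
        · simp [h3, h6, one_apply]
        · intro i _ hi
          rw [transpose_apply, h3, ← h6, if_neg (by simpa using hi), zero_mul]
        · simp
    · rw [if_neg, zero_mul]
      · by_contra h5
        apply h4
        refine isLeft_of_closed h _ fun i j hij => h5 ?_
        exact sum_tt_wU_eq_zero hψ A B _ hij
      · rw [h2]
        intro h5
        push Not at h4
        obtain ⟨j, hj⟩ := h4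
        rw [isUnit_iff_isUnit_det, det_eq_zero_of_column_eq_zero j] at h5
        · exact not_isUnit_zero h5
        · intro i
          rw [h3, if_neg]
          intro h6
          have h7 := congrArg Fin.val h6
          change B.n + i.val = _ at h7
          change (σ (e (Sum.inl j))).val < B.n at hj
          omega
  unfold gg
  change (nU F (A.n + B.n))⁻¹ * ∑ M : Matrix (Fin (A.n + B.n)) (Fin (A.n + B.n)) F,
    (A * B).ev M * wU ψ M = _
  generalize (∑ M : Matrix (Fin A.n) (Fin A.n) F, A.ev M * wU ψ M) = sA at hK ⊢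
  generalize (∑ M : Matrix (Fin B.n) (Fin B.n) F, B.ev M * wU ψ M) = sB at hK ⊢
  simp only [ev_mul A B e (by simp) (by simp), mul_assoc, Finset.sum_mul, ← Finset.mul_sum]
  rw [Finset.sum_comm]
  simp only [← Matrix.mul_assoc, hK, ← Finset.sum_mul]
  rw [card_bigCell, nU_add (rfl : A.n + B.n = _), Fintype.card_fin, Fintype.card_fin]
  have := pc_ne (F := F) A.n B.n
  have := nU_ne (F := F) A.n
  have := nU_ne (F := F) B.n
  have := card_ne (F := F)
  field_simp

end Cfsg.Agent.HC
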