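/-
The degree of a cuspidal character of a general linear group.
-/
import Cfsg.Agent.Lib.GLn.HC4

set_option autoImplicit false
set_option linter.unusedSectionVars false

namespace Cfsg.Agent.HC

open Matrix Cfsg
open scoped MatrixGroups ComplexConjugate

variable {F : Type*} [Field F] [Fintype F] [DecidableEq F]
variable {ι κ α β γ δ : Type*} [Fintype ι] [Fintype κ] [Fintype α] [Fintype β] [Fintype γ]
  [Fintype δ] [DecidableEq ι] [DecidableEq κ] [DecidableEq α] [DecidableEq β] [DecidableEq γ]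
  [DecidableEq δ]

/-- the first column -/
def col0 {l : ℕ} (z : Matrix α (Fin l) F) : α → F :=
  fun i => ∑ j : Fin l, if j.val = 0 then z i j else 0

noncomputable def mir (ψ : AddChar F ℂ) (A : CF F) (μ : α → F) (l : ℕ) : ℂ :=
  ∑ u : Matrix (Fin l) (Fin l) F, ∑ z : Matrix α (Fin l) F,
    A.ev (fromBlocks 1 z 0 u) * wU ψ u * conj (ψ (μ ⬝ᵥ col0 z))

theorem exists_GL_vecMul {μ μ' : α → F} (h : μ ≠ 0) (h' : μ' ≠ 0) :
    ∃ P Q : Matrix α α F, Q * P = 1 ∧ μ ᵥ* Q = μ' := by
  by_cases hc : 2 ≤ Fintype.card α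
  · obtain ⟨g, hg⟩ := SLn.exists_SL_mulVec hc h h'
    refine ⟨(g⁻¹).1ᵀ, g.1ᵀ, ?_, by rw [vecMul_transpose, hg]⟩
    rw [← transpose_mul, show (g⁻¹).1 * g.1 = (g⁻¹ * g).1 from rfl, inv_mul_cancel]
    simp
  · have : Subsingleton α := Fintype.card_le_one_iff_subsingleton.1 (by omega)
    obtain ⟨i, hi⟩ := Function.ne_iff.1 h
    obtain ⟨j, hj⟩ := Function.ne_iff.1 h'
    obtain rfl := Subsingleton.elim i j
    simp only [Pi.zero_apply] at hi hj
    refine ⟨(μ i / μ' i) • 1, (μ' i / μ i) • 1, ?_, ?_⟩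
    · rw [smul_mul_smul_comm, Matrix.one_mul]
      field_simp
      simp
    · ext k
      obtain rfl := Subsingleton.elim i k
      simp only [vecMul_smul, vecMul_one, Pi.smul_apply, smul_eq_mul]
      field_simp

theorem col0_mul {l : ℕ} (Q : Matrix α α F) (z : Matrix α (Fin l) F) :
    col0 (Q * z) = Q *ᵥ col0 z := by
  ext i
  simp only [col0, mul_apply, mulVec, dotProduct, Finset.mul_sum]
  rw [Finset.sum_comm]
  refine Finset.sum_congr rfl fun j _ => ?_
  split_ifs <;> simp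

theorem mir_eq (ψ : AddChar F ℂ) (A : CF F) {μ μ' : α → F} (h : μ ≠ 0) (h' : μ' ≠ 0) (l : ℕ) :
    mir ψ A μ l = mir ψ A μ' l := by
  obtain ⟨P, Q, hQ, rfl⟩ := exists_GL_vecMul h h'
  have hP : P * Q = 1 := mul_eq_one_comm.1 hQ
  refine Finset.sum_congr rfl fun u _ => ?_
  refine (Fintype.sum_bijective (fun b => Q * b) ?_ _ _ fun b => ?_).symm
  · refine Finite.injective_iff_bijective.1 fun b b' hb => ?_
    have := congrArg (fun Y => P * Y) hb
    simpa only [← Matrix.mul_assoc, hP, Matrix.one_mul] using this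
  · rw [← A.ev_conj (P := fromBlocks P 0 0 1) (Q := fromBlocks Q 0 0 1)
      (by simp [fromBlocks_multiply, hQ]), col0_mul, dotProduct_mulVec]
    simp [fromBlocks_multiply, hQ]

theorem mir_zero (ψ : AddChar F ℂ) {A : CF F} (hA : Cusp A) [Nonempty α] (l : ℕ) :
    mir ψ A (0 : α → F) (l + 1) = 0 := by
  refine Finset.sum_eq_zero fun u _ => ?_
  simp only [zero_dotProduct, ← Finset.sum_mul]
  rw [show ∑ z : Matrix α (Fin (l + 1)) F, A.ev (fromBlocks 1 z 0 u) = res A 1 u from rfl,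
    hA.res_eq, zero_mul, zero_mul]

theorem sum_dot {ψ : AddChar F ℂ} (hψ : ψ ≠ 1) (v : α → F) :
    ∑ μ : α → F, conj (ψ (μ ⬝ᵥ v)) =
      if v = 0 then (Fintype.card F : ℂ) ^ Fintype.card α else 0 := by
  split_ifs with h
  · simp [h]
  · obtain ⟨i, hi⟩ := Function.ne_iff.1 h
    simp only [Pi.zero_apply] at hi
    obtain ⟨t, ht⟩ : ∃ t, ψ t ≠ 1 := by
      by_contra h1
      push Not at h1
      exact hψ (by ext t; simp [h1 t])
    have h1 := Fintype.sum_equiv (Equiv.addRight (Pi.single i (t / v i)))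
      (fun μ : α → F => conj (ψ (μ ⬝ᵥ v)) * conj (ψ t)) (fun μ => conj (ψ (μ ⬝ᵥ v))) fun μ => by
        simp only [Equiv.coe_addRight, add_dotProduct, single_dotProduct, div_mul_cancel₀ _ hi,
          AddChar.map_add_eq_mul, map_mul]
    rw [← Finset.sum_mul] at h1
    by_contra h2
    apply ht
    have h3 := (mul_eq_left₀ h2).1 h1
    simpa using congrArg conj h3

theorem sum_mir {ψ : AddChar F ℂ} (hψ : ψ ≠ 1) (A : CF F) (l : ℕ) :
    ∑ μ : α → F, mir ψ A μ (l + 1) = (Fintype.card F : ℂ) ^ Fintype.card α *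
      mir ψ A (Pi.single (Sum.inr 0) 1 : α ⊕ Fin 1 → F) l := by
  have h : 1 + l = l + 1 := add_comm _ _
  unfold mir
  rw [Finset.sum_comm]
  simp only [Finset.sum_comm (s := (Finset.univ : Finset (α → F))), ← Finset.mul_sum, sum_dot hψ]
  rw [sum_split h]
  simp only [wU_blocks, wU_fin_one]
  rw [Finset.sum_eq_single 1 (fun b _ hb => by simp [hb]) (by simp), Finset.mul_sum]
  refine Finset.sum_congr rfl fun v _ => ?_
  let mk : Matrix (α ⊕ Fin 1) (Fin l) F → Matrix (Fin 1) (Fin l) F × Matrix α (Fin (l + 1)) F :=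
    fun z => (z.toRows₂, (fromCols 0 z.toRows₁).submatrix id (stdSplit h).symm)
  have hinj : Function.Injective mk := by
    intro z z' hz
    simp only [mk, Prod.mk.injEq] at hz
    rw [← fromRows_toRows z, ← fromRows_toRows z', hz.1]
    congr 1
    ext i j
    simpa using congrFun (congrFun hz.2 i) (stdSplit h (Sum.inr j))
  have hc : ∀ (p : Matrix α (Fin 1) F) (r : Matrix α (Fin l) F),
      col0 ((fromCols p r).submatrix id (stdSplit h).symm) = fun i => p i 0 := by
    intro p r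
    ext i
    unfold col0
    rw [← (stdSplit h).sum_comp, Fintype.sum_sum_type, Fin.sum_univ_one, if_pos (by rfl),
      Finset.sum_eq_zero fun j _ => if_neg (by rw [stdSplit_inr]; omega)]
    simp
  have h2 : ∀ y : Matrix (Fin 1) (Fin l) F, ∑ c : Matrix (Fin l) (Fin 1) F,
      ∑ z : Matrix α (Fin (l + 1)) F, (A.ev (fromBlocks 1 z 0
        ((fromBlocks 1 y c v).submatrix (stdSplit h).symm (stdSplit h).symm)) *
          if c = 0 then (if True then 1 else 0) * wU ψ v *
            conj (ψ (lk y)) else 0) *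
        (if col0 z = 0 then (Fintype.card F : ℂ) ^ Fintype.card α else 0) =
      ∑ z : Matrix α (Fin (l + 1)) F, (A.ev (fromBlocks 1 z 0
        ((fromBlocks 1 y 0 v).submatrix (stdSplit h).symm (stdSplit h).symm)) *
          (wU ψ v * conj (ψ (lk y)))) *
        (if col0 z = 0 then (Fintype.card F : ℂ) ^ Fintype.card α else 0) := by
    intro y
    rw [Finset.sum_eq_single 0 (fun b _ hb => by simp [hb]) (by simp)]
    simp
  simp only [h2]
  rw [← Fintype.sum_prod_type', Finset.mul_sum]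
  refine (Fintype.sum_of_injective mk hinj _ _ ?_ fun z => ?_).symm
  · rintro ⟨y, z⟩ hz
    rw [if_neg, mul_zero]
    intro h0
    apply hz
    obtain ⟨z, rfl⟩ : ∃ z' : Matrix α (Fin 1 ⊕ Fin l) F, z = z'.submatrix id (stdSplit h).symm :=
      ⟨z.submatrix id (stdSplit h), by ext i j; simp⟩
    rw [← fromCols_toCols z] at h0 ⊢
    rw [hc] at h0
    have h3 : z.toCols₁ = 0 := by
      ext i j
      rw [Subsingleton.elim j 0]
      exact congrFun h0 i
    exact ⟨fromRows z.toCols₂ y, by simp [mk, h3]⟩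
  · simp only [mk, hc]
    rw [if_pos (by ext; simp), mul_comm, mul_assoc (A.ev _) (wU ψ v)]
    congr 2
    · rw [← A.ev_submatrix ((Equiv.sumAssoc _ _ _).trans
        ((Equiv.refl α).sumCongr (stdSplit h)))]
      congr 1
      ext i j
      rcases i with (i | i) | i <;> rcases j with (j | j) | j <;> simp [one_apply, toRows₁, toRows₂]
    · congr 3
      rw [single_dotProduct, one_mul]
      simp [lk, col0, toRows₂]

theorem mir_base (ψ : AddChar F ℂ) (A : CF F) (μ : α → F) :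
    mir ψ A μ 0 = A.ev (1 : Matrix (α ⊕ Fin 0) (α ⊕ Fin 0) F) := by
  let _ : Unique (Matrix (Fin 0) (Fin 0) F) := ⟨⟨1⟩, fun b => Subsingleton.elim _ _⟩
  let _ : Unique (Matrix α (Fin 0) F) := ⟨⟨0⟩, fun b => Subsingleton.elim _ _⟩
  unfold mir
  rw [Fintype.sum_unique, Fintype.sum_unique, wU_fin_zero]
  have : col0 (default : Matrix α (Fin 0) F) = 0 := by ext; simp [col0]
  rw [this]
  simp only [dotProduct_zero, AddChar.map_zero_eq_one, map_one, mul_one]
  exact congrArg _ fromBlocks_one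

theorem mir_cusp {ψ : AddChar F ℂ} (hψ : ψ ≠ 1) {A : CF F} (hA : Cusp A) (l : ℕ) :
    ∀ (α : Type) [Fintype α] [DecidableEq α] (μ : α → F), μ ≠ 0 →
      mir ψ A μ l * ∏ i ∈ Finset.Ico (Fintype.card α) (Fintype.card α + l),
        ((Fintype.card F : ℂ) ^ i - 1) =
      (∏ i ∈ Finset.Ico (Fintype.card α) (Fintype.card α + l), (Fintype.card F : ℂ) ^ i) *
        A.ev (1 : Matrix (α ⊕ Fin l) (α ⊕ Fin l) F) := by
  induction l with
  | zero =>
    intro α _ _ μ _
    simp [mir_base]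
  | succ l ih =>
    intro α _ _ μ hμ
    have hne : Nonempty α := by
      obtain ⟨i, -⟩ := Function.ne_iff.1 hμ
      exact ⟨i⟩
    have h1 := sum_mir (α := α) hψ A l
    rw [← Finset.add_sum_erase _ _ (Finset.mem_univ 0), mir_zero ψ hA, zero_add,
      Finset.sum_congr rfl fun μ' h' => mir_eq ψ A (Finset.ne_of_mem_erase h') hμ (l + 1),
      Finset.sum_const, Finset.card_erase_of_mem (Finset.mem_univ _), Finset.card_univ,
      Fintype.card_fun, nsmul_eq_mul, Nat.cast_sub (Nat.one_le_pow _ _ Fintype.card_pos)] at h1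
    have h2 := ih (α ⊕ Fin 1) (Pi.single (Sum.inr 0) 1) (by simp)
    rw [Fintype.card_sum, Fintype.card_fin] at h2
    have h3 : A.ev (1 : Matrix ((α ⊕ Fin 1) ⊕ Fin l) ((α ⊕ Fin 1) ⊕ Fin l) F) =
        A.ev (1 : Matrix (α ⊕ Fin (l + 1)) (α ⊕ Fin (l + 1)) F) := by
      rw [← A.ev_submatrix ((Equiv.sumAssoc _ _ _).trans
        ((Equiv.refl α).sumCongr (stdSplit (add_comm 1 l)))), submatrix_one_equiv]
    rw [Finset.prod_eq_prod_Ico_succ_bot (a := Fintype.card α) (by omega),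
      Finset.prod_eq_prod_Ico_succ_bot (a := Fintype.card α) (by omega),
      show Fintype.card α + (l + 1) = Fintype.card α + 1 + l by omega, ← h3, mul_assoc (_ ^ _ : ℂ), ← h2]
    push_cast at h1
    linear_combination (∏ i ∈ Finset.Ico (Fintype.card α + 1) (Fintype.card α + 1 + l),
        ((Fintype.card F : ℂ) ^ i - 1)) * h1

theorem degree_cusp {ψ : AddChar F ℂ} (hψ : ψ ≠ 1) {A : CF F} (hA : Cusp A) (h0 : 0 < A.n) :
    A.f 1 = gg ψ A * ∏ i ∈ Finset.Ico 1 A.n, ((Fintype.card F : ℂ) ^ i - 1) := by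
  obtain ⟨l, h⟩ : ∃ l, 1 + l = A.n := ⟨A.n - 1, by omega⟩
  have h1 := mir_cusp hψ hA l (Fin 1) (fun _ => 1) (by
    intro h1; simpa using congrFun h1 0)
  rw [Fintype.card_fin, h] at h1
  have h2 : ∑ M : Matrix (Fin A.n) (Fin A.n) F, A.ev M * wU ψ M = mir ψ A (fun _ : Fin 1 => 1) l := by
    rw [sum_split h]
    simp only [wU_blocks, wU_fin_one, CF.ev_submatrix]
    rw [Finset.sum_eq_single 1 (fun b _ hb => by simp [hb]) (by simp)]
    refine Finset.sum_congr rfl fun v _ => Finset.sum_congr rfl fun z _ => ?_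
    rw [Finset.sum_eq_single 0 (fun b _ hb => by simp [hb]) (by simp)]
    simp [lk, col0, dotProduct, mul_assoc]
  have h3 : A.ev (1 : Matrix (Fin 1 ⊕ Fin l) (Fin 1 ⊕ Fin l) F) = A.f 1 := by
    rw [← A.ev_fin, ← A.ev_submatrix (stdSplit h), submatrix_one_equiv]
  have h4 : nU F A.n = ∏ i ∈ Finset.Ico 1 A.n, (Fintype.card F : ℂ) ^ i := by
    rw [nU_eq, Finset.range_eq_Ico, Finset.prod_eq_prod_Ico_succ_bot h0]
    simp
  rw [gg, h2, mul_assoc, h1, h3, ← h4, ← mul_assoc, inv_mul_cancel₀ (nU_ne _), one_mul]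

end Cfsg.Agent.HC
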