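/-
The Gelfand-Graev character of `GL_n(q)`: multiplicity free with `(q-1) q^(n-1)` constituents.
-/
import Cfsg.Agent.Lib.GLn.HC5
import Cfsg.Agent.Lib.Char.Gelfand

set_option autoImplicit false
set_option linter.unusedSectionVars false

namespace Cfsg.Agent.HC

open Matrix Cfsg
open scoped MatrixGroups ComplexConjugate

variable {F : Type*} [Field F] [Fintype F] [DecidableEq F] {n : ℕ}

/-- relevant monomial matrices -/
def Rel {T : Type*} (σ : Equiv.Perm (Fin n)) (t : Fin n → T) : Prop :=
  ∀ j j' : Fin n, j.val + 1 = j'.val → σ j' < σ j ∨ ((σ j').val = (σ j).val + 1 ∧ t j' = t j)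

theorem Rel.key {T : Type*} {σ : Equiv.Perm (Fin n)} {t : Fin n → T} (h : Rel σ t) {i j : Fin n}
    (hij : i ≤ j) : σ j < σ i ∨ ((σ j).val + i.val = (σ i).val + j.val ∧ t j = t i) := by
  have main : ∀ d : ℕ, ∀ j : Fin n, j.val = i.val + d → σ j < σ i ∨
      ∀ k : Fin n, i ≤ k → k ≤ j → (σ k).val + i.val = (σ i).val + k.val ∧ t k = t i := by
    intro d
    induction d with
    | zero =>
      intro j hj
      right
      intro k h1 h2
      obtain rfl : k = i := Fin.ext (by rw [Fin.le_def] at h1 h2; omega)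
      exact ⟨rfl, rfl⟩
    | succ d ih =>
      intro j hj
      let j0 : Fin n := ⟨i.val + d, by omega⟩
      have e0 : j0.val = i.val + d := rfl
      have hne : ∀ k : Fin n, k.val ≤ i.val + d → (σ j).val ≠ (σ k).val := by
        intro k hk h1
        have := congrArg Fin.val (σ.injective (Fin.ext h1))
        omega
      rcases ih j0 rfl with h1 | h1
      · left
        have := hne i (by omega)
        rcases h j0 j (by omega) with h2 | h2
        · exact h2.trans h1
        · rw [Fin.lt_def] at h1 ⊢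
          omega
      · have h3 := h1 j0 (by rw [Fin.le_def]; omega) le_rfl
        rcases h j0 j (by omega) with h2 | h2
        · left
          rw [Fin.lt_def] at h2 ⊢
          by_contra h4
          let k : Fin n := ⟨i.val + ((σ j).val - (σ i).val), by omega⟩
          have ek : k.val = i.val + ((σ j).val - (σ i).val) := rfl
          have h5 := h1 k (by rw [Fin.le_def]; omega) (by rw [Fin.le_def]; omega)
          exact hne k (by omega) (by omega)
        · right
          intro k h4 h5
          by_cases h6 : k = j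
          · subst h6
            exact ⟨by omega, h2.2.trans h3.2⟩
          · have := Fin.val_ne_of_ne h6
            exact h1 k h4 (by rw [Fin.le_def] at h5 ⊢; omega)
  rcases main (j.val - i.val) j (by rw [Fin.le_def] at hij; omega) with h1 | h1
  · exact Or.inl h1
  · exact Or.inr (h1 j hij le_rfl)

theorem Rel.rev {T : Type*} {σ : Equiv.Perm (Fin n)} {t : Fin n → T} (h : Rel σ t) (i : Fin n) :
    σ (σ i).rev = i.rev ∧ t (σ i).rev = t i := by
  set j := (σ i).rev with hj
  have ej : j.val = n - ((σ i).val + 1) := Fin.val_rev _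
  have hlt := (σ i).isLt
  have anti : ∀ a b : Fin n, a ≤ b → (σ b).val + a.val ≤ (σ a).val + b.val := by
    intro a b hab
    rcases h.key hab with h1 | h1
    · rw [Fin.lt_def] at h1
      rw [Fin.le_def] at hab
      omega
    · omega
  have lt_of : ∀ a b : Fin n, (σ b).val + a.val < (σ a).val + b.val → σ b < σ a := by
    intro a b hab
    rcases le_total a b with h1 | h1
    · exact (h.key h1).resolve_right fun h2 => by omega
    · have := anti b a h1
      omega
  have e : (σ j).val + i.val = (σ i).val + j.val := by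
    rcases lt_trichotomy ((σ j).val + i.val) ((σ i).val + j.val) with h1 | h1 | h1
    · exfalso
      have h2 : (Finset.Ici j).card ≤ (Finset.Iio (σ i)).card :=
        Finset.card_le_card_of_injOn σ (fun k hk => by
          have h3 := anti j k (by simpa using hk)
          simpa using lt_of i k (by omega)) σ.injective.injOn
      simp at h2
      omega
    · exact h1
    · exfalso
      have h2 : (Finset.Iic j).card ≤ (Finset.Ioi (σ i)).card :=
        Finset.card_le_card_of_injOn σ (fun k hk => by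
          have h3 := anti k j (by simpa using hk)
          simpa using lt_of k i (by omega)) σ.injective.injOn
      simp at h2
      omega
  refine ⟨Fin.ext (by rw [Fin.val_rev]; omega), ?_⟩
  rcases le_total i j with h1 | h1
  · refine ((h.key h1).resolve_left fun h2 => ?_).2
    rw [Fin.lt_def] at h2
    rw [Fin.le_def] at h1
    omega
  · refine ((h.key h1).resolve_left fun h2 => ?_).2.symm
    rw [Fin.lt_def] at h2
    rw [Fin.le_def] at h1
    omega

theorem Rel.asc {T : Type*} {σ : Equiv.Perm (Fin n)} {t : Fin n → T} (h : Rel σ t) {i j k k' : Fin n}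
    (h1 : σ i < σ j) (hik : i ≤ k) (hk : k.val + 1 = k'.val) (hkj : k' ≤ j) :
    (σ k').val = (σ k).val + 1 := by
  have hkk : k ≤ k' := by rw [Fin.le_def]; omega
  have a1 := h.key hik
  have a2 := h.key hkk
  have a3 := h.key hkj
  have a4 := h.key (hik.trans (hkk.trans hkj))
  simp only [Fin.lt_def, Fin.le_def] at *
  omega

theorem lt_of_asc {σ : Equiv.Perm (Fin n)} {i j : Fin n} (hij : i < j)
    (h : ∀ k k' : Fin n, i ≤ k → k.val + 1 = k'.val → k' ≤ j → (σ k').val = (σ k).val + 1) :
    σ i < σ j := by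
  have main : ∀ d : ℕ, ∀ k : Fin n, k.val = i.val + d → k ≤ j → (σ k).val = (σ i).val + d := by
    intro d
    induction d with
    | zero => intro k hk _; rw [Fin.ext hk]; rfl
    | succ d ih =>
      intro k hk hkj
      let k0 : Fin n := ⟨i.val + d, by omega⟩
      have e0 : k0.val = i.val + d := rfl
      have := ih k0 rfl (by rw [Fin.le_def] at hkj ⊢; omega)
      have := h k0 k (by rw [Fin.le_def]; omega) (by omega) hkj
      omega
  rw [Fin.lt_def] at hij ⊢
  have := main (j.val - i.val) j (by omega) le_rfl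
  omega

theorem Rel.perm_eq {T : Type*} {σ σ' : Equiv.Perm (Fin n)} {t t' : Fin n → T} (h : Rel σ t)
    (h' : Rel σ' t') (ha : ∀ k k' : Fin n, k.val + 1 = k'.val →
      ((σ k').val = (σ k).val + 1 ↔ (σ' k').val = (σ' k).val + 1)) : σ = σ' := by
  have h1 : StrictMono (fun a => σ' (σ.symm a)) := by
    intro a b hab
    obtain ⟨i, rfl⟩ := σ.surjective a
    obtain ⟨j, rfl⟩ := σ.surjective b
    simp only [Equiv.symm_apply_apply]
    rcases lt_trichotomy i j with h2 | h2 | h2
    · exact lt_of_asc h2 fun k k' a1 a2 a3 => (ha k k' a2).1 (h.asc hab a1 a2 a3)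
    · subst h2; exact (lt_irrefl _ hab).elim
    · by_contra h3
      have h4 : σ' j < σ' i := lt_of_le_of_ne (not_lt.1 h3) fun h4 => h2.ne (σ'.injective h4)
      exact hab.not_gt (lt_of_asc h2 fun k k' a1 a2 a3 => (ha k k' a2).2 (h'.asc h4 a1 a2 a3))
  ext i
  have h2 := h1.id_le (σ i)
  have h3 := h1.le_id (σ i)
  simp only [id, Equiv.symm_apply_apply] at h2 h3
  exact congrArg Fin.val (le_antisymm h2 h3)

theorem card_rel (n : ℕ) :
    Nat.card {x : Equiv.Perm (Fin (n + 1)) × (Fin (n + 1) → Fˣ) // Rel x.1 x.2} =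
      (Fintype.card F - 1) * Fintype.card F ^ n := by
  let Φ : {x : Equiv.Perm (Fin (n + 1)) × (Fin (n + 1) → Fˣ) // Rel x.1 x.2} → Fˣ × (Fin n → F) :=
    fun x => (x.1.2 0, fun i =>
      if (x.1.1 i.succ).val = (x.1.1 i.castSucc).val + 1 then 0 else (x.1.2 i.succ : F))
  have hstep : ∀ k k' : Fin (n + 1), k.val + 1 = k'.val → ∃ i : Fin n, k = i.castSucc ∧ k' = i.succ :=
    fun k k' h => ⟨⟨k.val, by omega⟩, Fin.ext rfl, Fin.ext h.symm⟩
  have hΦ : Function.Bijective Φ := by
    constructor
    · rintro ⟨⟨σ, t⟩, h⟩ ⟨⟨σ', t'⟩, h'⟩ he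
      simp only [Φ, Prod.mk.injEq] at he h h'
      obtain ⟨e1, e2⟩ := he
      have ha : ∀ i : Fin n, ((σ i.succ).val = (σ i.castSucc).val + 1 ↔
          (σ' i.succ).val = (σ' i.castSucc).val + 1) := by
        intro i
        have := congrFun e2 i
        by_cases a1 : (σ i.succ).val = (σ i.castSucc).val + 1 <;>
          by_cases a2 : (σ' i.succ).val = (σ' i.castSucc).val + 1 <;> simp_all
        exact (t' i.succ).ne_zero this.symm
      have e3 : σ = σ' := h.perm_eq h' fun k k' hk => by
        obtain ⟨i, rfl, rfl⟩ := hstep k k' hk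
        exact ha i
      subst e3
      have e4 : t = t' := by
        funext i
        induction i using Fin.induction with
        | zero => exact e1
        | succ i ih =>
          have := congrFun e2 i
          by_cases a1 : (σ i.succ).val = (σ i.castSucc).val + 1
          · have b1 := (h i.castSucc i.succ (by simp)).resolve_left (by rw [Fin.lt_def]; omega)
            have b2 := (h' i.castSucc i.succ (by simp)).resolve_left (by rw [Fin.lt_def]; omega)
            rw [b1.2, b2.2, ih]
          · simp only [a1, if_false] at this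
            exact Units.ext this
      subst e4
      rfl
    · rintro ⟨t0, c⟩
      let c' : ℕ → F := fun k => if h : k < n then c ⟨k, h⟩ else 0
      have hc' : ∀ i : Fin n, c' i.val = c i := fun i => dif_pos i.2
      let bb : ℕ → ℕ := fun k => Nat.rec 0 (fun k b => if c' k = 0 then b else b + 1) k
      let tt : ℕ → Fˣ := fun k => Nat.rec t0 (fun k b => if h : c' k = 0 then b else Units.mk0 _ h) k
      let key : Fin (n + 1) → ℕᵒᵈ ×ₗ ℕ := fun j => toLex (OrderDual.toDual (bb j.val), j.val)
      have hinj : Function.Injective key := fun a b h => Fin.ext (congrArg (fun x => (ofLex x).2) h)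
      have hmono : StrictMono (key ∘ Tuple.sort key) :=
        (Tuple.monotone_sort key).strictMono_of_injective (hinj.comp (Tuple.sort key).injective)
      let σ := (Tuple.sort key).symm
      have hσ : ∀ a b, σ a < σ b ↔ key a < key b := by
        intro a b
        rw [← hmono.lt_iff_lt]
        simp [σ]
      have hkey : ∀ a b, key a < key b ↔ bb b.val < bb a.val ∨ (bb a.val = bb b.val ∧ a.val < b.val) := by
        intro a b
        simp only [key, Prod.Lex.toLex_lt_toLex, OrderDual.toDual_lt_toDual, OrderDual.toDual_inj]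
      have h1 : ∀ i : Fin n, c i ≠ 0 → σ i.succ < σ i.castSucc := by
        intro i hi
        rw [hσ, hkey]
        left
        change bb i.val < if c' i.val = 0 then bb i.val else bb i.val + 1
        rw [hc', if_neg hi]
        omega
      have h2 : ∀ i : Fin n, c i = 0 → (σ i.succ).val = (σ i.castSucc).val + 1 := by
        intro i hi
        have e : bb i.succ.val = bb i.castSucc.val := by
          change (if c' i.val = 0 then bb i.val else bb i.val + 1) = bb i.val
          rw [hc', if_pos hi]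
        have a1 : σ i.castSucc < σ i.succ := by
          rw [hσ, hkey]; right; exact ⟨e.symm, by simp⟩
        by_contra a2
        rw [Fin.lt_def] at a1
        obtain ⟨k, hk⟩ := σ.surjective ⟨(σ i.castSucc).val + 1, by omega⟩
        have a3 : σ i.castSucc < σ k := by rw [hk, Fin.lt_def]; simp
        have a4 : σ k < σ i.succ := by rw [hk, Fin.lt_def]; simp only; omega
        rw [hσ, hkey] at a3 a4
        simp only [Fin.val_succ, Fin.val_castSucc] at a3 a4 e
        omega
      refine ⟨⟨(σ, fun j => tt j.val), fun k k' hk => ?_⟩, Prod.ext rfl (funext fun i => ?_)⟩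
      · obtain ⟨i, rfl, rfl⟩ := hstep k k' hk
        by_cases hi : c i = 0
        · refine Or.inr ⟨h2 i hi, ?_⟩
          change (if h : c' i.val = 0 then tt i.val else Units.mk0 _ h) = tt i.val
          rw [dif_pos (by rw [hc', hi])]
        · exact Or.inl (h1 i hi)
      · change (if (σ i.succ).val = (σ i.castSucc).val + 1 then 0 else
          ((if h : c' i.val = 0 then tt i.val else Units.mk0 _ h : Fˣ) : F)) = c i
        by_cases hi : c i = 0
        · rw [if_pos (h2 i hi), hi]
        · have := h1 i hi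
          rw [Fin.lt_def] at this
          rw [if_neg (by omega), dif_neg (by rwa [hc'])]
          exact hc' i
  rw [Nat.card_eq_of_bijective Φ hΦ]
  simp [Nat.card_eq_fintype_card, Fintype.card_units]

/-- monomial matrices -/
def mono (σ : Equiv.Perm (Fin n)) (t : Fin n → Fˣ) : GL (Fin n) F :=
  GLn.permGL F σ * ⟨diagonal fun i => (t i : F), diagonal fun i => ((t i)⁻¹ : Fˣ),
    by simp [diagonal_mul_diagonal], by simp [diagonal_mul_diagonal]⟩

theorem coe_mono (σ : Equiv.Perm (Fin n)) (t : Fin n → Fˣ) :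
    (mono σ t : Matrix (Fin n) (Fin n) F) = SLn.monoMat σ fun i => (t i : F) := by
  ext i j
  simp [mono, GLn.coe_permGL, SLn.monoMat_apply]

theorem exists_mono (g : GL (Fin n) F) : ∃ (σ : Equiv.Perm (Fin n)) (t : Fin n → Fˣ)
    (u u' : UG F n), g = u * mono σ t * u' := by
  obtain ⟨u, b, σ, hu, hu1, hb, rfl⟩ := GLn.bruhat g
  have hb' := GLn.mem_upperTriangularGL.1 hb
  have h1 : ∀ i, b.1 i i ≠ 0 := by
    have h2 : (b.1).det ≠ 0 := (isUnit_iff_isUnit_det _).1 b.isUnit |>.ne_zero
    rw [det_of_isUpperTriangular (fun i j h => hb' i j h)] at h2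
    exact fun i => Finset.prod_ne_zero_iff.1 h2 i (Finset.mem_univ _)
  let t : Fin n → Fˣ := fun i => Units.mk0 _ (h1 i)
  refine ⟨σ, t, ⟨u, GLn.mem_upperTriangularGL.1 hu, hu1⟩, ⟨(mono 1 t)⁻¹ * b, ?_, ?_⟩, ?_⟩
  · intro i j hij
    simp [mono, hb' i j hij]
  · intro i
    simp [mono, t, h1 i]
  · have : mono σ t = GLn.permGL F σ * mono 1 t := by simp only [mono, map_one, one_mul]
    rw [this]
    simp only [mul_assoc, mul_inv_cancel_left]

theorem mono_unique {σ σ' : Equiv.Perm (Fin n)} {t t' : Fin n → Fˣ} {u u' : UG F n}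
    (h : (u : GL (Fin n) F) * mono σ t = mono σ' t' * u') : σ = σ' ∧ t = t' := by
  have h1 : ∀ i j, (u.1.1 (σ' i) (σ j)) * t j = t' i * u'.1.1 i j := by
    intro i j
    have h0 : u.1.1 * (mono σ t).1 = (mono σ' t').1 * u'.1.1 := congrArg Units.val h
    have := congrFun (congrFun h0 (σ' i)) j
    rwa [coe_mono, coe_mono, SLn.mul_monoMat_apply,
      SLn.monoMat_mul_apply] at this
  have h2 : ∀ j, σ'.symm (σ j) ≤ j := by
    intro j
    by_contra h2
    have := h1 (σ'.symm (σ j)) j
    rw [u'.2.1 _ _ (not_le.1 h2), Equiv.apply_symm_apply, u.2.2] at this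
    simp at this
  have h3 : σ = σ' := by
    have h4 : ∑ j, (σ'.symm (σ j)).val = ∑ j : Fin n, j.val :=
      Equiv.sum_comp (σ.trans σ'.symm) Fin.val
    have h5 := (Finset.sum_eq_sum_iff_of_le fun j _ => Fin.le_def.1 (h2 j)).1 h4
    ext j
    have := Fin.ext (h5 j (Finset.mem_univ _))
    rw [Equiv.symm_apply_eq] at this
    rw [this]
  subst h3
  refine ⟨rfl, funext fun j => Units.ext ?_⟩
  have := h1 j j
  rwa [u.2.2, u'.2.2, one_mul, mul_one] at this

/-- the linear character of the unitriangular group -/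
noncomputable def lU (ψ : AddChar F ℂ) (n : ℕ) : UG F n → ℂ := fun u => ψ (sd u.1.1)

theorem lU_one (ψ : AddChar F ℂ) : lU ψ n 1 = 1 := by simp [lU, sd_one]

theorem lU_mul (ψ : AddChar F ℂ) (a b : UG F n) : lU ψ n (a * b) = lU ψ n a * lU ψ n b := by
  unfold lU
  rw [← AddChar.map_add_eq_mul, ← sd_mul a.2 b.2]
  rfl

theorem not_irrel (ψ : AddChar F ℂ) {σ : Equiv.Perm (Fin n)} {t : Fin n → Fˣ} (h : Rel σ t) :
    ¬ Char.Irrel (UG F n) (lU ψ n) (mono σ t) := by
  rintro ⟨u, u', h0, h2⟩
  apply h2
  have h1 : ∀ i j, (u.1.1 (σ i) (σ j)) * t j = t i * u'.1.1 i j := by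
    intro i j
    have h0' : u.1.1 * (mono σ t).1 = (mono σ t).1 * u'.1.1 := congrArg Units.val h0
    have := congrFun (congrFun h0' (σ i)) j
    rwa [coe_mono, SLn.mul_monoMat_apply,
      SLn.monoMat_mul_apply] at this
  unfold lU
  congr 1
  unfold sd
  rw [← Equiv.sum_comp σ]
  refine Finset.sum_congr rfl fun i _ => ?_
  rw [← Equiv.sum_comp σ]
  refine Finset.sum_congr rfl fun j _ => ?_
  by_cases h3 : u'.1.1 i j = 0
  · have h4 := h1 i j
    rw [h3, mul_zero, mul_eq_zero] at h4
    simp [h3, h4.resolve_right (t j).ne_zero]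
  · have h4 : i ≤ j := not_lt.1 fun h4 => h3 (u'.2.1 _ _ h4)
    have h5 : ¬ σ j < σ i := fun h5 => by
      have := h1 i j
      rw [u.2.1 _ _ h5, zero_mul, eq_comm, mul_eq_zero] at this
      exact h3 (this.resolve_left (t i).ne_zero)
    obtain ⟨h6, h7⟩ := (h.key h4).resolve_left h5
    have h8 := h1 i j
    rw [h7, mul_comm, mul_right_inj' (t i).ne_zero] at h8
    rw [h8]
    exact if_congr (by omega) rfl rfl

/-- elementary unitriangular matrices -/
def elU {i j : Fin n} (h : i < j) (c : F) : UG F n :=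
  ⟨⟨1 + single i j c, 1 - single i j c,
    by simp [add_mul, mul_sub, single_mul_single_of_ne c i j i h.ne'],
    by simp [sub_mul, mul_add, single_mul_single_of_ne c i j i h.ne']⟩,
    fun a b hab => by
      change (1 + single i j c : Matrix _ _ F) a b = 0
      rw [Matrix.add_apply, one_apply_ne hab.ne', single_apply_of_ne, add_zero]
      rintro ⟨rfl, rfl⟩
      exact lt_asymm h hab,
    fun a => by
      change (1 + single i j c : Matrix _ _ F) a a = 1
      rw [Matrix.add_apply, one_apply_eq, single_apply_of_ne, add_zero]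
      rintro ⟨rfl, rfl⟩
      exact lt_irrefl _ h⟩

theorem lU_elU (ψ : AddChar F ℂ) {i j : Fin n} (h : i < j) (c : F) :
    lU ψ n (elU h c) = if i.val + 1 = j.val then ψ c else 1 := by
  change ψ (sd (1 + single i j c)) = _
  rw [sd_add, sd_one, zero_add, sd_single]
  split_ifs <;> simp

theorem irrel_of_not_rel {ψ : AddChar F ℂ} (hψ : ψ ≠ 1) {σ : Equiv.Perm (Fin n)} {t : Fin n → Fˣ}
    (h : ¬ Rel σ t) : Char.Irrel (UG F n) (lU ψ n) (mono σ t) := by
  simp only [Rel, not_forall, not_or] at h
  obtain ⟨j, j', h1, h2, h3⟩ := h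
  have h4 : j < j' := by rw [Fin.lt_def]; omega
  have h5 : σ j < σ j' := lt_of_le_of_ne (not_lt.1 h2) fun h5 => h4.ne (σ.injective h5)
  obtain ⟨s, hs⟩ : ∃ t, ψ t ≠ 1 := by
    by_contra h1
    push Not at h1
    exact hψ (by ext t; simp [h1 t])
  have key : ∀ c : F, ((elU h5 (t j * c / t j') : UG F n) : GL (Fin n) F) * mono σ t =
      mono σ t * (elU h4 c : UG F n) := by
    intro c
    apply Units.ext
    ext a b
    obtain ⟨a, rfl⟩ := σ.surjective a
    rw [Units.val_mul, Units.val_mul, coe_mono, SLn.mul_monoMat_apply, SLn.monoMat_mul_apply]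
    simp only [elU, Matrix.add_apply, one_apply, single_apply, EmbeddingLike.apply_eq_iff_eq]
    by_cases hab : a = b
    · subst hab
      have h6 : ¬ (j = a ∧ j' = a) := by rintro ⟨rfl, rfl⟩; exact lt_irrefl _ h4
      simp [h6]
    · simp only [hab, if_false, zero_add]
      split_ifs with h6
      · obtain ⟨rfl, rfl⟩ := h6
        field_simp
      · simp
  by_cases h6 : (σ j).val + 1 = (σ j').val
  · have h7 : (t j : F) - t j' ≠ 0 := fun h7 => h3 ⟨h6.symm, Units.ext (sub_eq_zero.1 h7).symm⟩
    refine ⟨_, _, key (s * t j' / (t j - t j')), ?_⟩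
    rw [lU_elU, lU_elU, if_pos h6, if_pos h1]
    have h8 : (t j : F) * (s * t j' / (t j - t j')) / t j' = s * t j' / (t j - t j') + s := by
      field_simp
      ring
    rw [h8, AddChar.map_add_eq_mul]
    intro h9
    exact hs ((mul_eq_left₀ (by
      intro h10
      have := ψ.map_add_eq_mul (s * t j' / (t j - t j')) (-(s * t j' / (t j - t j')))
      rw [h10] at this
      simp at this)).1 h9)
  · refine ⟨_, _, key s, ?_⟩
    rw [lU_elU, lU_elU, if_neg h6, if_pos h1]
    exact hs.symm

theorem irrel_mul {G : Type*} [Group G] {U : Subgroup G} {l : U → ℂ} (hl1 : l 1 = 1)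
    (hm : ∀ a b, l (a * b) = l a * l b) {g : G} (h : Char.Irrel U l g) (a b : U) :
    Char.Irrel U l (a * g * b) := by
  obtain ⟨u, u', h1, h2⟩ := h
  have h5 : ∀ a b : U, l (a⁻¹ * b * a) = l b := by
    intro a b
    rw [hm, hm, mul_right_comm, ← hm, inv_mul_cancel, hl1, one_mul]
  refine ⟨a⁻¹⁻¹ * u * a⁻¹, b⁻¹ * u' * b, ?_, by rwa [h5, h5]⟩
  simp only [Subgroup.coe_mul, Subgroup.coe_inv]
  calc _ = (a : G) * (u * g) * b := by group
    _ = _ := by rw [h1]; group

/-- reflection in the antidiagonal -/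
def antiT (g : GL (Fin n) F) : GL (Fin n) F :=
  ⟨g.1ᵀ.submatrix Fin.revPerm Fin.revPerm, (g⁻¹).1ᵀ.submatrix Fin.revPerm Fin.revPerm,
    by rw [submatrix_mul_equiv, ← transpose_mul]; simp,
    by rw [submatrix_mul_equiv, ← transpose_mul]; simp⟩

theorem antiT_apply (g : GL (Fin n) F) (i j : Fin n) : (antiT g).1 i j = g.1 j.rev i.rev := rfl

theorem antiT_mul (a b : GL (Fin n) F) : antiT (a * b) = antiT b * antiT a := by
  apply Units.ext
  simp only [antiT, Units.val_mul, transpose_mul, submatrix_mul_equiv]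

theorem antiT_antiT (a : GL (Fin n) F) : antiT (antiT a) = a := by
  ext i j
  simp [antiT_apply]

theorem antiT_mem {u : GL (Fin n) F} (h : u ∈ UG F n) : antiT u ∈ UG F n :=
  ⟨fun i j hij => h.1 _ _ (Fin.rev_lt_rev.2 hij), fun i => h.2 _⟩

theorem sd_antiT (u : GL (Fin n) F) : sd (antiT u).1 = sd u.1 := by
  unfold sd
  rw [Finset.sum_comm, ← Equiv.sum_comp Fin.revPerm]
  refine Finset.sum_congr rfl fun i _ => ?_
  rw [← Equiv.sum_comp Fin.revPerm]
  refine Finset.sum_congr rfl fun j _ => ?_
  simp only [Fin.revPerm_apply, antiT_apply, Fin.rev_rev, Fin.val_rev]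
  exact if_congr (by omega) rfl rfl

theorem antiT_mono {σ : Equiv.Perm (Fin n)} {t : Fin n → Fˣ} (h : Rel σ t) :
    antiT (mono σ t) = mono σ t := by
  ext i j
  obtain ⟨i, rfl⟩ := σ.surjective i
  rw [antiT_apply, coe_mono, SLn.monoMat_apply, SLn.monoMat_apply, (h.rev i).1, (h.rev i).2]
  simp only [Fin.rev_inj, EmbeddingLike.apply_eq_iff_eq]
  by_cases hij : i = j
  · simp [hij]
  · simp [hij, Ne.symm hij]

/-- the Gelfand-Graev character -/
noncomputable def ggChar (ψ : AddChar F ℂ) (n : ℕ) : GL (Fin n) F → ℂ := indFun (UG F n) (lU ψ n)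

theorem inner_ggChar_le {ψ : AddChar F ℂ} (hψ : ψ ≠ 1) {χ : GL (Fin n) F → ℂ}
    (hχ : IsIrrCharacter _ χ) : classInner χ (ggChar ψ n) = 0 ∨ classInner χ (ggChar ψ n) = 1 := by
  classical
  let θU : UG F n ≃ UG F n :=
    { toFun := fun u => ⟨antiT u, antiT_mem u.2⟩
      invFun := fun u => ⟨antiT u, antiT_mem u.2⟩
      left_inv := fun u => Subtype.ext (antiT_antiT _)
      right_inv := fun u => Subtype.ext (antiT_antiT _) }
  have hθ : ∀ u, lU ψ n (θU u) = lU ψ n u := fun u => congrArg ψ (sd_antiT _)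
  refine Char.mult_le_one _ _ (lU_one ψ) (lU_mul ψ) antiT antiT_mul θU (fun u => ⟨rfl, hθ u⟩)
    (fun g => ?_) hχ
  obtain ⟨σ, t, u, u', rfl⟩ := exists_mono g
  by_cases h : Rel σ t
  · left
    refine ⟨θU u' * u⁻¹, u'⁻¹ * θU u, ?_, ?_⟩
    · rw [antiT_mul, antiT_mul, antiT_mono h]
      simp [θU, mul_assoc]
    · rw [lU_mul, lU_mul, hθ, hθ, mul_assoc, mul_left_comm, ← mul_assoc (lU ψ n u'), ← lU_mul,
        mul_inv_cancel, lU_one, one_mul, ← lU_mul, inv_mul_cancel, lU_one]
  · exact Or.inr (irrel_mul (lU_one ψ) (lU_mul ψ) (irrel_of_not_rel hψ h) u u')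

theorem card_generic {ψ : AddChar F ℂ} (hψ : ψ ≠ 1) (n : ℕ) :
    Nat.card {χ : IrrCharacter (GL (Fin (n + 1)) F) //
      classInner (χ : GL (Fin (n + 1)) F → ℂ) (ggChar ψ (n + 1)) ≠ 0} =
      (Fintype.card F - 1) * Fintype.card F ^ n := by
  classical
  have h1 := Char.card_constituents (Char.isClass_indFun (UG F (n + 1)) (lU ψ (n + 1)))
    fun χ hχ => inner_ggChar_le hψ hχ
  rw [Char.inner_indFun_self _ _ (lU_one ψ) (lU_mul ψ)
    (R := {x : Equiv.Perm (Fin (n + 1)) × (Fin (n + 1) → Fˣ) // Rel x.1 x.2})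
    (fun x => mono x.1.1 x.1.2) (fun g => ?_) (fun x => not_irrel ψ x.2) (fun x y u u' h => ?_),
    ← Nat.card_eq_fintype_card, card_rel] at h1
  · exact_mod_cast h1
  · obtain ⟨σ, t, u, u', rfl⟩ := exists_mono g
    by_cases h : Rel σ t
    · exact Or.inl ⟨⟨(σ, t), h⟩, u, u', rfl⟩
    · exact Or.inr (irrel_mul (lU_one ψ) (lU_mul ψ) (irrel_of_not_rel hψ h) u u')
  · exact Subtype.ext (Prod.ext (mono_unique h).1 (mono_unique h).2)

theorem gg_eq_inner (ψ : AddChar F ℂ) (A : CF F) :
    gg ψ A = classInner (A.chr (Fin A.n)) (ggChar ψ A.n) := by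
  classical
  have key : ∀ (φ : AddChar F ℂ) (f : Matrix (Fin A.n) (Fin A.n) F → ℂ),
      ∑ u : UG F A.n, f u.1.1 * conj (lU φ A.n u) = ∑ M, f M * wU φ M := by
    intro φ f
    refine Fintype.sum_of_injective (fun u : UG F A.n => u.1.1)
      (Units.val_injective.comp Subtype.val_injective) _ _ (fun M hM => ?_) fun u => ?_
    · rw [wU, if_neg, mul_zero]
      intro h
      obtain ⟨x, rfl⟩ := h.isUnit
      exact hM ⟨⟨x, h⟩, rfl⟩
    · rw [wU, if_pos (mem_UG.1 u.2)]; rfl
  rw [ggChar, Char.inner_indFun_right _ _ (A.isClass_chr _), gg, classInner, ← key]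
  congr 2
  have := key 1 1
  simpa [lU, nU] using this.symm

end Cfsg.Agent.HC
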