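/-
The number of cuspidal characters of `GL_n(q)`.
-/
import Cfsg.Agent.Lib.GLn.HC6
import Cfsg.Agent.Lib.GLn.PolyCount

set_option autoImplicit false
set_option linter.unusedSectionVars false

namespace Cfsg.Agent.HC

open Matrix Cfsg Polynomial
open scoped MatrixGroups ComplexConjugate

section graded

variable {X Y : Type*}

theorem exists_lift {p : X → Prop} (S : Multiset X) (h : ∀ x ∈ S, p x) :
    ∃ T : Multiset {x // p x}, T.map Subtype.val = S :=
  ⟨S.pmap (fun x hx => ⟨x, hx⟩) h, by rw [Multiset.map_pmap, Multiset.pmap_eq_map]; simp⟩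

theorem card_multiset_deg (dX : X → ℕ) (hX : ∀ x, 0 < dX x) (d : ℕ)
    [Finite {S : Multiset X // (S.map dX).sum = d}] :
    Finite {x // dX x = d} ∧
    Finite {S : Multiset {x // dX x < d} // (S.map fun x => dX x.1).sum = d} ∧
    Nat.card {S : Multiset X // (S.map dX).sum = d} = Nat.card {x // dX x = d} +
      Nat.card {S : Multiset {x // dX x < d} // (S.map fun x => dX x.1).sum = d} := by
  let Φ : {x // dX x = d} ⊕ {S : Multiset {x // dX x < d} // (S.map fun x => dX x.1).sum = d} →
      {S : Multiset X // (S.map dX).sum = d} :=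
    Sum.elim (fun x => ⟨{x.1}, by simpa using x.2⟩) fun S => ⟨S.1.map Subtype.val, by
      simpa using S.2⟩
  have hΦ : Function.Bijective Φ := by
    constructor
    · have key : ∀ (x : {x // dX x = d}) (S : Multiset {x // dX x < d}),
          ({x.1} : Multiset X) ≠ S.map Subtype.val := by
        intro x S h
        have : x.1 ∈ S.map Subtype.val := h ▸ Multiset.mem_singleton_self _
        obtain ⟨y, -, hy⟩ := Multiset.mem_map.1 this
        have h1 := y.2
        rw [hy, x.2] at h1
        exact lt_irrefl _ h1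
      rintro (x | S) (y | T) h
      · have h1 : ({x.1} : Multiset X) = {y.1} := congrArg Subtype.val h
        rw [Subtype.ext (Multiset.singleton_inj.1 h1)]
      · exact (key x T.1 (congrArg Subtype.val h)).elim
      · exact (key y S.1 (congrArg Subtype.val h).symm).elim
      · have h1 : S.1.map Subtype.val = T.1.map Subtype.val := congrArg Subtype.val h
        rw [Subtype.ext (Multiset.map_injective Subtype.val_injective h1)]
    · rintro ⟨S, hS⟩
      by_cases h : ∀ x ∈ S, dX x < d
      · obtain ⟨T, rfl⟩ := exists_lift S h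
        exact ⟨Sum.inr ⟨T, by simpa using hS⟩, rfl⟩
      · push Not at h
        obtain ⟨x, hx, h1⟩ := h
        obtain ⟨T, rfl⟩ := Multiset.exists_cons_of_mem hx
        rw [Multiset.map_cons, Multiset.sum_cons] at hS
        have h2 : T = 0 := by
          by_contra h2
          obtain ⟨y, hy⟩ := Multiset.exists_mem_of_ne_zero h2
          obtain ⟨T', rfl⟩ := Multiset.exists_cons_of_mem hy
          rw [Multiset.map_cons, Multiset.sum_cons] at hS
          have := hX y
          omega
        subst h2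
        exact ⟨Sum.inl ⟨x, by simpa using hS⟩, rfl⟩
  have hf := Finite.of_injective Φ hΦ.1
  have h1 : Finite {x // dX x = d} := Finite.of_injective _ (Sum.inl_injective (β :=
    {S : Multiset {x // dX x < d} // (S.map fun x => dX x.1).sum = d}))
  have h2 : Finite {S : Multiset {x // dX x < d} // (S.map fun x => dX x.1).sum = d} :=
    Finite.of_injective _ (Sum.inr_injective (α := {x // dX x = d}))
  exact ⟨h1, h2, by rw [← Nat.card_eq_of_bijective Φ hΦ, Nat.card_sum]⟩

theorem card_eq_of_multiset (dX : X → ℕ) (dY : Y → ℕ) (hX : ∀ x, 0 < dX x) (hY : ∀ y, 0 < dY y)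
    (fX : ∀ n, Finite {S : Multiset X // (S.map dX).sum = n})
    (fY : ∀ n, Finite {S : Multiset Y // (S.map dY).sum = n})
    (h : ∀ n, 0 < n → Nat.card {S : Multiset X // (S.map dX).sum = n} =
      Nat.card {S : Multiset Y // (S.map dY).sum = n}) (d : ℕ) :
    Nat.card {x // dX x = d} = Nat.card {y // dY y = d} := by
  induction d using Nat.strong_induction_on with
  | _ d ih =>
  rcases Nat.eq_zero_or_pos d with rfl | hd
  · have : IsEmpty {x // dX x = 0} := ⟨fun x => (hX x.1).ne' x.2⟩
    have : IsEmpty {x // dY x = 0} := ⟨fun x => (hY x.1).ne' x.2⟩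
    simp
  obtain ⟨-, a2, a3⟩ := card_multiset_deg dX hX d
  obtain ⟨-, b2, b3⟩ := card_multiset_deg dY hY d
  have h1 : ∀ c, Nonempty ({a : {x // dX x < d} // dX a.1 = c} ≃
      {a : {x // dY x < d} // dY a.1 = c}) := by
    intro c
    by_cases hc : c < d
    · have := (card_multiset_deg dX hX c).1
      have := (card_multiset_deg dY hY c).1
      obtain ⟨e⟩ := Finite.card_eq.1 (ih c hc)
      exact ⟨(Equiv.subtypeSubtypeEquivSubtype (q := fun x => dX x = c)
        fun {x} hx => hx ▸ hc).trans (e.trans (Equiv.subtypeSubtypeEquivSubtype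
          (q := fun x => dY x = c) fun {x} hx => hx ▸ hc).symm)⟩
    · have : IsEmpty {a : {x // dX x < d} // dX a.1 = c} := ⟨fun x => hc (x.2 ▸ x.1.2)⟩
      have : IsEmpty {a : {x // dY x < d} // dY a.1 = c} := ⟨fun x => hc (x.2 ▸ x.1.2)⟩
      exact ⟨Equiv.equivOfIsEmpty _ _⟩
  let e := Equiv.ofFiberEquiv fun c => (h1 c).some
  have he : ∀ a, dY (e a).1 = dX a.1 := Equiv.ofFiberEquiv_map fun c => (h1 c).some
  have h2 : Nat.card {S : Multiset {x // dX x < d} // (S.map fun x => dX x.1).sum = d} =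
      Nat.card {S : Multiset {x // dY x < d} // (S.map fun x => dY x.1).sum = d} := by
    refine Nat.card_congr (Equiv.subtypeEquiv
      { toFun := Multiset.map e
        invFun := Multiset.map e.symm
        left_inv := fun S => by simp
        right_inv := fun S => by simp } fun S => ?_)
    simp [he]
  have := h d hd
  omega

end graded

variable {F : Type*} [Field F] [Fintype F] [DecidableEq F]

/-- monic irreducible polynomials other than `X` -/
abbrev IrrP (F : Type*) [Field F] := {f : F[X] // f.Monic ∧ Irreducible f ∧ f ≠ X}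

theorem bijective_prod_irrP (n : ℕ) : ∃ Φ : {S : Multiset (IrrP F) //
    (S.map fun f => f.1.natDegree).sum = n} →
      {f : F[X] // f.Monic ∧ f.natDegree = n ∧ f.coeff 0 ≠ 0}, Function.Bijective Φ := by
  have hm : ∀ S : Multiset (IrrP F), ∀ f ∈ S.map Subtype.val, f.Monic := by
    intro S f hf
    obtain ⟨g, -, rfl⟩ := Multiset.mem_map.1 hf
    exact g.2.1
  have hd : ∀ S : Multiset (IrrP F),
      (S.map Subtype.val).prod.natDegree = (S.map fun f => f.1.natDegree).sum := by
    intro S
    rw [natDegree_multiset_prod_of_monic _ (hm S), Multiset.map_map]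
    rfl
  refine ⟨fun S => ⟨(S.1.map Subtype.val).prod, ?_, ?_, ?_⟩, ?_, ?_⟩
  · simpa using monic_multiset_prod_of_monic S.1 Subtype.val fun f _ => f.2.1
  · rw [hd, S.2]
  · rw [Ne, ← X_dvd_iff]
    intro h
    obtain ⟨g, hg, h1⟩ := (prime_X (R := F)).exists_mem_multiset_dvd h
    obtain ⟨g, -, rfl⟩ := Multiset.mem_map.1 hg
    exact g.2.2.2 (eq_of_monic_of_associated monic_X g.2.1
      (irreducible_X.associated_of_dvd g.2.2.1 h1)).symm
  · intro S T h
    have h1 : (S.1.map Subtype.val).prod = (T.1.map Subtype.val).prod := congrArg Subtype.val h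
    have key : ∀ S : Multiset (IrrP F), UniqueFactorizationMonoid.normalizedFactors
        (S.map Subtype.val).prod = S.map Subtype.val := by
      intro S
      rw [UniqueFactorizationMonoid.normalizedFactors_prod_eq _ fun f hf => by
        obtain ⟨g, -, rfl⟩ := Multiset.mem_map.1 hf
        exact g.2.2.1]
      conv_rhs => rw [← Multiset.map_id (S.map Subtype.val)]
      exact Multiset.map_congr rfl fun f hf => (hm S f hf).normalize_eq_self
    apply Subtype.ext
    apply Multiset.map_injective Subtype.val_injective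
    rw [← key, h1, key]
  · rintro ⟨f, h1, h2, h3⟩
    have h4 : ∀ g ∈ UniqueFactorizationMonoid.normalizedFactors f,
        g.Monic ∧ Irreducible g ∧ g ≠ X := by
      intro g hg
      obtain ⟨a1, a2, a3⟩ := (Polynomial.mem_normalizedFactors_iff h1.ne_zero).1 hg
      refine ⟨a2, a1, ?_⟩
      rintro rfl
      exact h3 (X_dvd_iff.1 a3)
    obtain ⟨T, h5⟩ := exists_lift _ h4
    have h6 : (T.map Subtype.val).prod = f := by
      rw [h5, UniqueFactorizationMonoid.prod_normalizedFactors_eq h1.ne_zero, h1.normalize_eq_self]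
    exact ⟨⟨T, by rw [← hd, h6, h2]⟩, Subtype.ext h6⟩

theorem totient_le (n : ℕ) (hn : 0 < n) :
    Nat.totient (Fintype.card F ^ n - 1) ≤ n * Nat.card {f : IrrP F // f.1.natDegree = n} := by
  classical
  obtain ⟨p, hp⟩ := CharP.exists F
  have : Fact p.Prime := ⟨CharP.char_is_prime F p⟩
  have : NeZero n := ⟨hn.ne'⟩
  let K := FiniteField.Extension F p n
  have := Fintype.ofFinite K
  have hK : Fintype.card Kˣ = Fintype.card F ^ n - 1 := by
    rw [Fintype.card_units, ← Nat.card_eq_fintype_card, FiniteField.natCard_extension,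
      Nat.card_eq_fintype_card]
  have hfin : Finite {f : IrrP F // f.1.natDegree = n} :=
    Finite.of_injective (β := {f : F[X] // f.Monic ∧ f.natDegree = n})
      (fun f => ⟨f.1.1, f.1.2.1, f.2⟩) fun f g h =>
        Subtype.ext (Subtype.ext (by simpa using h))
  have := Fintype.ofFinite {f : IrrP F // f.1.natDegree = n}
  rw [← hK, ← IsCyclic.card_orderOf_eq_totient (α := Kˣ) dvd_rfl, Nat.card_eq_fintype_card,
    ← Finset.card_univ (α := {f : IrrP F // f.1.natDegree = n}), ← Finset.card_image_of_injective _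
      (Subtype.val_injective.comp Subtype.val_injective)]
  refine Finset.card_le_mul_card_image_of_maps_to (f := fun g : Kˣ => minpoly F (g : K))
    (fun g hg => ?_) n fun f hf => ?_
  · have hi : IsIntegral F (g : K) := IsIntegral.of_finite F _
    refine Finset.mem_image.2 ⟨⟨⟨_, minpoly.monic hi, minpoly.irreducible hi, fun h => ?_⟩, ?_⟩,
      Finset.mem_univ _, rfl⟩
    · have := minpoly.aeval F (g : K)
      rw [h, aeval_X] at this
      exact g.ne_zero this
    · change (minpoly F (g : K)).natDegree = n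
      refine Eq.trans ?_ (FiniteField.finrank_extension F p n)
      rw [← Field.primitive_element_iff_minpoly_natDegree_eq, eq_top_iff]
      intro x _
      by_cases hx : x = 0
      · rw [hx]; exact zero_mem _
      · have h1 : Subgroup.zpowers g = ⊤ := by
          apply Subgroup.eq_top_of_card_eq
          rw [Nat.card_zpowers, (Finset.mem_filter.1 hg).2, Nat.card_eq_fintype_card]
        obtain ⟨k, hk⟩ := Subgroup.mem_zpowers_iff.1 (h1 ▸ Subgroup.mem_top (Units.mk0 x hx))
        have h2 : x = (g : K) ^ k := by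
          rw [← Units.val_zpow_eq_zpow_val, hk]; rfl
        rw [h2]
        exact zpow_mem (IntermediateField.mem_adjoin_simple_self F _) k
  · obtain ⟨f, -, rfl⟩ := Finset.mem_image.1 hf
    calc _ ≤ (f.1.1.aroots K).toFinset.card := by
          refine Finset.card_le_card_of_injOn Units.val (fun g hg => ?_) Units.val_injective.injOn
          have h1 : minpoly F (g : K) = f.1.1 := (Finset.mem_filter.1 hg).2
          simp only [Finset.mem_coe, Multiset.mem_toFinset, mem_aroots]
          exact ⟨f.1.2.1.ne_zero, h1 ▸ minpoly.aeval F (g : K)⟩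
      _ ≤ (f.1.1.aroots K).card := Multiset.toFinset_card_le _
      _ ≤ n := (card_roots' _).trans (by rw [natDegree_map, f.2])

theorem IsCu.gg {ψ : AddChar F ℂ} (hψ : ψ ≠ 1) {A : CF F} (h : IsCu A) : gg ψ A = 1 := by
  have h1 := degree_cusp hψ h.2.1 h.2.2
  have h2 := Char.irr_one_ne_zero h.1
  have h3 : A.chr (Fin A.n) 1 = A.f 1 := A.ev_fin _
  refine (gg_eq_inner ψ A ▸ inner_ggChar_le hψ h.1).resolve_left fun h4 => h2 ?_
  rw [h3, h1, h4, zero_mul]

theorem gg_prod {ψ : AddChar F ℂ} (hψ : ψ ≠ 1) {S : Multiset (CF F)} (h : ∀ A ∈ S, IsCu A) :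
    gg ψ S.prod = 1 := by
  induction S using Multiset.induction_on with
  | empty => exact gg_one ψ
  | cons a S ih =>
    rw [Multiset.prod_cons, gg_mul hψ, (h a (by simp)).gg hψ, ih fun A hA => h A (by simp [hA]),
      one_mul]

theorem isChar_ggChar (ψ : AddChar F ℂ) (n : ℕ) : IsCharacter _ (ggChar ψ n) :=
  Char.isChar_indFun _ (Char.isChar_of_irr (Char.isIrr_of_mul (lU_one ψ) (lU_mul ψ)))

theorem bijective_generic {ψ : AddChar F ℂ} (hψ : ψ ≠ 1) (n : ℕ) :
    ∃ Φ : {S : Multiset {A : CF F // IsCu A} // (S.map fun A => A.1.n).sum = n} →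
      {χ : IrrCharacter (GL (Fin n) F) // classInner (χ : GL (Fin n) F → ℂ) (ggChar ψ n) ≠ 0},
      Function.Bijective Φ := by
  have hS : ∀ S : Multiset {A : CF F // IsCu A}, ∀ A ∈ S.map Subtype.val, IsCu A := by
    intro S A hA
    obtain ⟨B, -, rfl⟩ := Multiset.mem_map.1 hA
    exact B.2
  have hc : ∀ S : Multiset {A : CF F // IsCu A}, IsCh (S.map Subtype.val).prod := fun S =>
    isCh_prod fun A hA => (hS S A hA).1.isCh
  have hn : ∀ S : {S : Multiset {A : CF F // IsCu A} // (S.map fun A => A.1.n).sum = n},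
      (S.1.map Subtype.val).prod.n = n := fun S => by
    rw [prod_n, Multiset.map_map]; exact S.2
  have hg : ∀ S : {S : Multiset {A : CF F // IsCu A} // (S.map fun A => A.1.n).sum = n},
      classInner ((S.1.map Subtype.val).prod.chr (Fin n)) (ggChar ψ n) = 1 := fun S => by
    have h1 := gg_prod hψ (hS S.1)
    rw [gg_eq_inner, hn S] at h1
    exact h1
  have h1 : ∀ S : {S : Multiset {A : CF F // IsCu A} // (S.map fun A => A.1.n).sum = n},
      ∃ χ : {χ : IrrCharacter (GL (Fin n) F) //
        classInner (χ : GL (Fin n) F → ℂ) (ggChar ψ n) ≠ 0},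
        classInner ((S.1.map Subtype.val).prod.chr (Fin n)) χ.1.1 ≠ 0 := by
    intro S
    obtain ⟨χ, a1, a2, a3⟩ := Char.exists_irr_common (CF.isClass_chr _ _)
      (show _ ≠ 0 by rw [hg S]; exact one_ne_zero)
    refine ⟨⟨⟨χ, a1⟩, ?_⟩, a2⟩
    rwa [Char.inner_char_comm (Char.isChar_of_irr a1) (isChar_ggChar ψ n)]
  choose Φ hΦ using h1
  have h2 : ∀ (S T : {S : Multiset {A : CF F // IsCu A} // (S.map fun A => A.1.n).sum = n})
      (χ : GL (Fin n) F → ℂ), IsIrrCharacter _ χ →
      classInner ((S.1.map Subtype.val).prod.chr (Fin n)) χ ≠ 0 →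
      classInner ((T.1.map Subtype.val).prod.chr (Fin n)) χ ≠ 0 → S = T := by
    intro S T χ a1 a2 a3
    apply Subtype.ext
    apply Multiset.map_injective Subtype.val_injective
    refine support_unique _ _ (hS _) (hS _) ?_
    rw [ip_eq_inner (ι := Fin n) _ _ (by rw [hn]; simp)]
    exact inner_ne_zero_of_common (hc _).chr (hc _).chr a1 a2 a3
  refine ⟨Φ, fun S T h => h2 S T _ (Φ S).1.2 (hΦ S) (h ▸ hΦ T), ?_⟩
  rintro ⟨⟨χ, a1⟩, a2⟩
  obtain ⟨S, b1, b2⟩ := exists_support _ (isIr_ofClass a1)
  obtain ⟨S, rfl⟩ := exists_lift S b1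
  have b4 : (S.map Subtype.val).prod.n = n := n_eq_of_ip b2
  let S' : {S : Multiset {A : CF F // IsCu A} // (S.map fun A => A.1.n).sum = n} :=
    ⟨S, by rw [prod_n, Multiset.map_map] at b4; exact b4⟩
  refine ⟨S', Subtype.ext (Subtype.ext ?_)⟩
  rw [ip_eq_inner (ι := Fin n) _ _ (by rw [b4]; simp), chr_ofClass] at b2
  by_contra b5
  have c1 := Char.isChar_sub_irr (hc S'.1).chr a1 b2
  refine inner_ne_zero_of_common c1 (isChar_ggChar ψ n) (Φ S').1.2 ?_ ?_ ?_
  · rw [Char.inner_sub_left, Char.inner_irr_ne a1 (Φ S').1.2 (Ne.symm b5), sub_zero]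
    exact hΦ S'
  · rw [Char.inner_char_comm (isChar_ggChar ψ n) (Char.isChar_of_irr (Φ S').1.2)]
    exact (Φ S').2
  · rw [Char.inner_sub_left, hg, (inner_ggChar_le hψ a1).resolve_left a2, sub_self]

theorem exists_addChar (F : Type*) [Field F] [Fintype F] : ∃ ψ : AddChar F ℂ, ψ ≠ 1 := by
  refine ⟨AddChar.FiniteField.primitiveChar_to_Complex F, ?_⟩
  have := AddChar.FiniteField.primitiveChar_to_Complex_isPrimitive F (one_ne_zero (α := F))
  rwa [AddChar.mulShift_one] at this

theorem card_cusp (n : ℕ) : Nat.card {A : {A : CF F // IsCu A} // A.1.n = n} =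
    Nat.card {f : IrrP F // f.1.natDegree = n} := by
  obtain ⟨ψ, hψ⟩ := exists_addChar F
  refine card_eq_of_multiset (fun A : {A : CF F // IsCu A} => A.1.n)
    (fun f : IrrP F => f.1.natDegree) (fun A => A.2.2.2) (fun f => f.2.2.1.natDegree_pos)
    (fun n => ?_) (fun n => ?_) (fun n hn => ?_) n
  · obtain ⟨Φ, h⟩ := bijective_generic hψ n
    exact Finite.of_injective Φ h.1
  · obtain ⟨Φ, h⟩ := bijective_prod_irrP (F := F) n
    exact Finite.of_injective Φ h.1
  · obtain ⟨Φ, h⟩ := bijective_generic hψ n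
    obtain ⟨Φ', h'⟩ := bijective_prod_irrP (F := F) n
    obtain ⟨n, rfl⟩ : ∃ m, n = m + 1 := ⟨n - 1, by omega⟩
    rw [Nat.card_eq_of_bijective Φ h, Nat.card_eq_of_bijective Φ' h', card_generic hψ,
      GLn.card_monic_coeff_zero_ne, Nat.card_eq_fintype_card]

theorem IsCu.degree {A : CF F} (h : IsCu A) :
    A.chr (Fin A.n) 1 = ∏ i ∈ Finset.Ico 1 A.n, ((Fintype.card F : ℂ) ^ i - 1) := by
  obtain ⟨ψ, hψ⟩ := exists_addChar F
  have h1 := degree_cusp hψ h.2.1 h.2.2
  rw [h.gg hψ, one_mul] at h1
  exact (A.ev_fin _).trans h1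

open scoped Classical in
theorem Cusp.sum_radical {A : CF F} (h : Cusp A) {n m : ℕ} (h0 : 0 < m) (h1 : m < n) :
    (∑ g : GL (Fin n) F, if (∀ i j : Fin n, ¬ (i.val < m ∧ m ≤ j.val) →
      (g : Matrix (Fin n) (Fin n) F) i j = (1 : Matrix (Fin n) (Fin n) F) i j)
      then A.chr (Fin n) g else 0) = 0 := by
  obtain ⟨k, hk⟩ : ∃ k, m + k = n := ⟨n - m, by omega⟩
  refine (sum_GL (fun M => if (∀ i j : Fin n, ¬ (i.val < m ∧ m ≤ j.val) →
      M i j = (1 : Matrix (Fin n) (Fin n) F) i j) then A.ev M else 0)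
      (fun M hM => by simp [A.ev_sing hM])).trans ?_
  refine Eq.trans ?_ (h m k 1 1 h0 (by omega))
  rw [sum_split hk]
  have key : ∀ (u : Matrix (Fin m) (Fin m) F) (v : Matrix (Fin k) (Fin k) F)
      (z : Matrix (Fin m) (Fin k) F) (c : Matrix (Fin k) (Fin m) F),
      (∀ i j : Fin n, ¬ (i.val < m ∧ m ≤ j.val) →
        (fromBlocks u z c v).submatrix (stdSplit hk).symm (stdSplit hk).symm i j =
          (1 : Matrix (Fin n) (Fin n) F) i j) ↔ u = 1 ∧ v = 1 ∧ c = 0 := by
    intro u v z c
    simp only [(stdSplit hk).surjective.forall, submatrix_apply, Equiv.symm_apply_apply,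
      Sum.forall, fromBlocks_apply₁₁, fromBlocks_apply₁₂, fromBlocks_apply₂₁, fromBlocks_apply₂₂,
      stdSplit_inl, stdSplit_inr, one_apply, EmbeddingLike.apply_eq_iff_eq, ← Matrix.ext_iff]
    simp
    intro _
    rw [forall_and, and_comm]
  simp only [key, CF.ev_submatrix]
  rw [Finset.sum_eq_single 1 (fun b _ hb => by simp [hb]) (by simp),
    Finset.sum_eq_single 1 (fun b _ hb => by simp [hb]) (by simp)]
  simp [res]

end Cfsg.Agent.HC
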