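/-
The Moebius function of the lattice of submodules of a finite semisimple `F[X]`-module.
-/
import Mathlib

set_option autoImplicit false
set_option linter.unusedSectionVars false

namespace Cfsg.Agent.SSM

open Polynomial UniqueFactorizationMonoid

universe u

variable {F : Type*} [Field F] [Fintype F] [DecidableEq F]

section defs
variable (F) (V : Type*) [AddCommGroup V] [Module F V] [Module F[X] V] [IsScalarTower F F[X] V]

/-- multiplication by `X` -/
noncomputable def xEnd : Module.End F V := (LinearMap.lsmul F[X] V X).restrictScalars F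

/-- the characteristic polynomial of a finite `F[X]`-module -/
noncomputable def ch [Finite V] : F[X] := (xEnd F V).charpoly

end defs

variable {V : Type*} [AddCommGroup V] [Module F V] [Module F[X] V] [IsScalarTower F F[X] V]
  [Finite V] {V' : Type*} [AddCommGroup V'] [Module F V'] [Module F[X] V'] [IsScalarTower F F[X] V']
  [Finite V']

theorem xEnd_apply (v : V) : xEnd F V v = (X : F[X]) • v := rfl

theorem aeval_xEnd (g : F[X]) (v : V) : aeval (xEnd F V) g v = g • v := by
  induction g using Polynomial.induction_on generalizing v with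
  | C a => simp [← algebraMap_smul F[X] a v]
  | add p q hp hq => simp [hp, hq, add_smul]
  | monomial n a ih =>
    rw [pow_succ, ← mul_assoc, map_mul, Module.End.mul_apply, ih, aeval_X, xEnd_apply, mul_smul _ X]

theorem ch_monic : (ch F V).Monic := LinearMap.charpoly_monic _

theorem natDegree_ch : (ch F V).natDegree = Module.finrank F V := LinearMap.charpoly_natDegree _

theorem ch_eq_of_equiv {W : Type*} [AddCommGroup W] [Module F W] [Module.Finite F W]
    (e : W ≃ₗ[F] V) (T : Module.End F W) (h : ∀ v, e (T v) = (X : F[X]) • e v) :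
    ch F V = T.charpoly := by
  rw [← e.charpoly_conj, ch]
  congr 1
  ext v
  simp [xEnd_apply, LinearEquiv.conj_apply, h]

theorem ch_congr (e : V ≃ₗ[F[X]] V') : ch F V = ch F V' :=
  (ch_eq_of_equiv (e.restrictScalars F) _ fun v => by simp [xEnd_apply]).symm

theorem ch_isCompl {p q : Submodule F[X] V} (h : IsCompl p q) : ch F V = ch F p * ch F q := by
  rw [ch_eq_of_equiv ((Submodule.prodEquivOfIsCompl p q h).restrictScalars F)
    ((xEnd F p).prodMap (xEnd F q)) fun v => by simp [xEnd_apply], LinearMap.charpoly_prodMap]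
  rfl

theorem exists_of_simple [h : IsSimpleModule F[X] V] : ∃ f : F[X], f.Monic ∧ Irreducible f ∧
    ch F V = f ∧ Nonempty (V ≃ₗ[F[X]] F[X] ⧸ Ideal.span {f}) := by
  obtain ⟨I, hI, ⟨e⟩⟩ := isSimpleModule_iff_quot_maximal.1 h
  obtain ⟨g, rfl⟩ : ∃ g, I = Ideal.span {g} := ⟨_, (Ideal.span_singleton_generator I).symm⟩
  have hg : g ≠ 0 := by
    rintro rfl
    exact Ring.ne_bot_of_isMaximal_of_not_isField hI (Polynomial.not_isField F) (by simp)
  have hgi : Irreducible g := ((Ideal.span_singleton_prime hg).1 hI.isPrime).irreducible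
  have ha := associated_normalize g
  rw [Ideal.span_singleton_eq_span_singleton.2 ha] at e
  set f := normalize g
  have hf : f.Monic := monic_normalize hg
  have hfi : Irreducible f := ha.irreducible hgi
  refine ⟨f, hf, hfi, ?_, ⟨e⟩⟩
  refine eq_of_monic_of_dvd_of_natDegree_le hf ch_monic ?_ ?_
  · have h1 := aeval_xEnd (ch F V) (e.symm (Ideal.Quotient.mk _ 1))
    rw [ch, LinearMap.aeval_self_charpoly, ← map_smul, LinearMap.zero_apply, eq_comm,
      LinearEquiv.map_eq_zero_iff] at h1
    rw [← Ideal.mem_span_singleton, ← Ideal.Quotient.eq_zero_iff_mem, ch, ← h1]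
    change _ = Ideal.Quotient.mk _ (_ * 1)
    rw [mul_one]
  · rw [natDegree_ch, (e.restrictScalars F).finrank_eq, finrank_quotient_span_eq_natDegree]

theorem ch_smul (v : V) : ch F V • v = 0 := by
  rw [← aeval_xEnd, ch, LinearMap.aeval_self_charpoly, LinearMap.zero_apply]

theorem card_hom_simple [IsSimpleModule F[X] V] [IsSimpleModule F[X] V'] :
    Nat.card (V →ₗ[F[X]] V') =
      if ch F V = ch F V' then Fintype.card F ^ (ch F V').natDegree else 1 := by
  obtain ⟨f, f1, f2, f3, ⟨e⟩⟩ := exists_of_simple (F := F) (V := V)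
  obtain ⟨g, g1, g2, g3, -⟩ := exists_of_simple (F := F) (V := V')
  split_ifs with h
  · rw [natDegree_ch, ← Nat.card_eq_fintype_card, ← Module.natCard_eq_pow_finrank]
    refine Nat.card_eq_of_bijective (fun φ => φ (e.symm (Ideal.Quotient.mk _ 1))) ⟨?_, ?_⟩
    · intro φ ψ hφ
      ext v
      obtain ⟨w, rfl⟩ := e.symm.surjective v
      obtain ⟨w, rfl⟩ := Ideal.Quotient.mk_surjective w
      have : Ideal.Quotient.mk (Ideal.span {f}) w = w • Ideal.Quotient.mk (Ideal.span {f}) 1 := by
        change _ = Ideal.Quotient.mk _ (_ * 1)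
        rw [mul_one]
      rw [this, map_smul, map_smul, map_smul]
      exact congrArg _ hφ
    · intro v
      refine ⟨(Submodule.liftQ (Ideal.span {f}) (LinearMap.toSpanSingleton F[X] V' v) ?_).comp
        e.toLinearMap, ?_⟩
      · rw [Ideal.span_le]
        rintro _ rfl
        rw [← f3, h]
        exact ch_smul v
      · simp only [LinearMap.comp_apply, LinearEquiv.coe_coe, LinearEquiv.apply_symm_apply]
        exact (Submodule.liftQ_apply _ _ _).trans (by simp)
  · have hc : IsCoprime f g := by
      rw [f2.coprime_iff_not_dvd]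
      intro h1
      exact h (by rw [f3, g3, eq_of_monic_of_associated f1 g1 (f2.associated_of_dvd g2 h1)])
    obtain ⟨a, b, hab⟩ := hc
    have : Unique (V →ₗ[F[X]] V') := ⟨⟨0⟩, fun φ => LinearMap.ext fun v => by
      change φ v = 0
      rw [← one_smul F[X] (φ v), ← hab, add_smul, mul_smul, mul_smul, ← map_smul φ f, ← f3, ← g3,
        ch_smul, ch_smul]
      simp⟩
    exact Nat.card_unique

/-- restriction to complementary submodules -/
noncomputable def homEquiv {p q : Submodule F[X] V} (h : IsCompl p q) :
    (V →ₗ[F[X]] V') ≃ (p →ₗ[F[X]] V') × (q →ₗ[F[X]] V') :=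
  (LinearMap.ofIsComplProdEquiv h).symm.toEquiv

theorem card_hom [IsSimpleModule F[X] V'] (n : ℕ) : ∀ (W : Type u) [AddCommGroup W] [Module F W]
    [Module F[X] W] [IsScalarTower F F[X] W] [Finite W] [IsSemisimpleModule F[X] W],
    Module.finrank F W = n → Nat.card (W →ₗ[F[X]] V') = Fintype.card F ^
      ((ch F V').natDegree * (normalizedFactors (ch F W)).count (ch F V')) := by
  induction n using Nat.strong_induction_on with
  | _ n ih =>
  intro W _ _ _ _ _ _ hn
  rcases subsingleton_or_nontrivial W with h | h
  · have h1 : ch F W = 1 := by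
      rw [← ch_monic.natDegree_eq_zero, natDegree_ch, Module.finrank_zero_of_subsingleton]
    rw [h1]
    simp
  obtain ⟨b, hb⟩ := IsSemisimpleModule.exists_simple_submodule F[X] W
  obtain ⟨c, hc⟩ := exists_isCompl b
  obtain ⟨f, f1, f2, f3, -⟩ := exists_of_simple (F := F) (V := b)
  have h1 := ch_isCompl hc
  have h2 := congrArg natDegree h1
  rw [ch_monic.natDegree_mul ch_monic, f3, natDegree_ch, natDegree_ch] at h2
  have h3 := f2.natDegree_pos
  rw [Nat.card_congr (homEquiv hc), Nat.card_prod, card_hom_simple, ih _ (by omega) c rfl, h1,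
    normalizedFactors_mul ch_monic.ne_zero ch_monic.ne_zero, Multiset.count_add, mul_add, pow_add]
  congr 1
  rw [f3, normalizedFactors_irreducible f2, f1.normalize_eq_self, Multiset.count_singleton]
  by_cases h4 : f = ch F V'
  · simp [h4]
  · simp [h4, Ne.symm h4]

theorem card_compl [IsSemisimpleModule F[X] V] {a c : Submodule F[X] V} [IsSimpleModule F[X] a]
    (h : IsCompl a c) : Nat.card {W // IsCompl a W} = Fintype.card F ^
      ((ch F a).natDegree * (normalizedFactors (ch F c)).count (ch F a)) := by
  rw [← card_hom _ c rfl, Nat.card_congr a.isComplEquivProj]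
  refine Nat.card_eq_of_bijective (fun φ => φ.1.domRestrict c) ⟨fun φ ψ e => ?_, fun φ => ?_⟩
  · apply Subtype.ext
    apply (homEquiv h).injective
    refine Prod.ext (LinearMap.ext fun v => (φ.2 v).trans (ψ.2 v).symm) e
  · exact ⟨⟨LinearMap.ofIsCompl h LinearMap.id φ, fun x => by simp⟩, by ext; simp⟩

variable {μ : F[X] → ℂ}

theorem sum_compl [IsSemisimpleModule F[X] V] [Fintype (Submodule F[X] V)]
    (hμ : ∀ f c : F[X], f.Monic → Irreducible f → c.Monic → μ (f * c) =
      -(Fintype.card F : ℂ) ^ (f.natDegree * (normalizedFactors c).count f) * μ c)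
    (a : Submodule F[X] V) [IsSimpleModule F[X] a] [DecidablePred (IsCompl a)] :
    μ (ch F V) + ∑ W : Submodule F[X] V with IsCompl a W, μ (ch F W) = 0 := by
  obtain ⟨c, hc⟩ := exists_isCompl a
  obtain ⟨f, f1, f2, f3, -⟩ := exists_of_simple (F := F) (V := a)
  rw [Finset.sum_congr rfl (g := fun _ => μ (ch F c)) fun W hW => by
    have := (ch_isCompl (Finset.mem_filter.1 hW).2).symm.trans (ch_isCompl hc)
    rw [mul_left_cancel₀ ch_monic.ne_zero this]]
  rw [Finset.sum_const, ← Fintype.card_subtype, ← Nat.card_eq_fintype_card, card_compl hc,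
    ch_isCompl hc, f3, hμ f _ f1 f2 ch_monic]
  simp

theorem sum_mu [IsSemisimpleModule F[X] V] [Nontrivial V] [Fintype (Submodule F[X] V)]
    (hμ : ∀ f c : F[X], f.Monic → Irreducible f → c.Monic → μ (f * c) =
      -(Fintype.card F : ℂ) ^ (f.natDegree * (normalizedFactors c).count f) * μ c) :
    ∑ W : Submodule F[X] V, μ (ch F W) = 0 := by
  classical
  obtain ⟨a, ha⟩ := IsSemisimpleModule.exists_simple_submodule F[X] V
  rw [← Finset.sum_fiberwise (g := fun W => W ⊔ a)]
  refine Finset.sum_eq_zero fun N _ => ?_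
  by_cases hN : a ≤ N
  swap
  · refine Finset.sum_eq_zero fun W hW => (hN ?_).elim
    rw [← (Finset.mem_filter.1 hW).2]
    exact le_sup_right
  have := Fintype.ofFinite (Submodule F[X] N)
  have hs : IsSimpleModule F[X] (a.comap N.subtype) :=
    IsSimpleModule.congr (Submodule.comapSubtypeEquivOfLe hN)
  rw [← sum_compl hμ (a.comap N.subtype), ← Finset.add_sum_erase _ _ (a := N) (by simpa using hN)]
  congr 1
  symm
  refine Finset.sum_bij (fun W _ => W.map N.subtype) (fun W hW => ?_) (fun W _ W' _ h => ?_)
    (fun W hW => ?_) fun W _ => congrArg μ (ch_congr (F := F) (V := W) (V' := W.map N.subtype)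
      (W.equivMapOfInjective _ N.injective_subtype))
  · have h1 := (Finset.mem_filter.1 hW).2
    have h2 : (a.comap N.subtype).map N.subtype = a := by
      rw [Submodule.map_comap_subtype, inf_eq_right.2 hN]
    simp only [Finset.mem_erase, Finset.mem_filter, Finset.mem_univ, true_and]
    constructor
    · intro h3
      have h4 : W = ⊤ := by
        apply Submodule.map_injective_of_injective N.injective_subtype
        rw [h3, Submodule.map_subtype_top]
      rw [h4] at h1
      have h5 := eq_bot_of_isCompl_top h1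
      rw [h5, Submodule.map_bot] at h2
      exact (isSimpleModule_iff_isAtom.1 ha).1 h2.symm
    · conv_lhs => rw [← h2]
      rw [← Submodule.map_sup, sup_comm, h1.sup_eq_top, Submodule.map_subtype_top]
  · exact Submodule.map_injective_of_injective N.injective_subtype h
  · simp only [Finset.mem_erase, Finset.mem_filter, Finset.mem_univ, true_and] at hW ⊢
    obtain ⟨h1, h2⟩ := hW
    have h3 : W ≤ N := h2 ▸ le_sup_left
    refine ⟨W.comap N.subtype, ⟨?_, ?_⟩, by rw [Submodule.map_comap_subtype, inf_eq_right.2 h3]⟩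
    · rw [disjoint_iff, ← Submodule.comap_inf]
      have h4 : a ⊓ W = ⊥ := by
        refine ((isSimpleModule_iff_isAtom.1 ha).le_iff.1 inf_le_left).resolve_right fun h4 => h1 ?_
        rw [← h2, sup_eq_left.2 (inf_eq_left.1 h4)]
      rw [h4, Submodule.comap_bot, Submodule.ker_subtype]
    · rw [codisjoint_iff]
      apply Submodule.map_injective_of_injective N.injective_subtype
      rw [Submodule.map_sup, Submodule.map_comap_subtype, Submodule.map_comap_subtype,
        inf_eq_right.2 h3, inf_eq_right.2 hN, sup_comm, h2, Submodule.map_subtype_top]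

end Cfsg.Agent.SSM
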