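/-
Permutation characters on flags as Harish-Chandra products; values of the Steinberg character of
`GL_n(q)` at semisimple elements.
-/
import Cfsg.Agent.Lib.GLn.HC4
import Cfsg.Agent.Lib.GLn.SSMod
import Cfsg.Agent.Lib.Char.Perm
import Cfsg.Agent.Lib.GLn.UnipDegree

set_option autoImplicit false
set_option linter.unusedSectionVars false

namespace Cfsg.Agent.HC

open Matrix Cfsg Polynomial UniqueFactorizationMonoid
open scoped MatrixGroups ComplexConjugate

variable {F : Type*} [Field F] [Fintype F] [DecidableEq F]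
variable {ι κ α β γ δ : Type*} [Fintype ι] [Fintype κ] [Fintype α] [Fintype β] [Fintype γ]
  [Fintype δ] [DecidableEq ι] [DecidableEq κ] [DecidableEq α] [DecidableEq β] [DecidableEq γ]
  [DecidableEq δ]

open scoped Classical in
/-- a function of the characteristic polynomial -/
noncomputable def ofPoly (v : F[X] → ℂ) (k : ℕ) : CF F where
  n := k
  f M := if IsUnit M then v M.charpoly else 0
  cl P Q M h := by
    have hP : P * Q = 1 := (mul_eq_one_comm (a := Q) (b := P)).1 h
    let x : GL (Fin k) F := ⟨Q, P, h, hP⟩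
    have h1 : (Q * M * P).charpoly = M.charpoly := by
      rw [charpoly_mul_comm, ← Matrix.mul_assoc, hP, Matrix.one_mul]
    have h2 : IsUnit (Q * M * P) ↔ IsUnit M := by
      change IsUnit (x.1 * M * x⁻¹.1) ↔ _
      simp
    simp only [h1, h2]
  sing M hM := if_neg hM

theorem ev_ofPoly_pos (v : F[X] → ℂ) {k : ℕ} (h : Fintype.card ι = k) {M : Matrix ι ι F}
    (hM : IsUnit M) : (ofPoly v k).ev M = v M.charpoly := by
  rw [(ofPoly v k).ev_eq (Fintype.equivFinOfCardEq h).symm]
  have := (isUnit_submatrix (Fintype.equivFinOfCardEq h).symm M).2 hM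
  refine Eq.trans ?_ (congrArg v (charpoly_reindex (Fintype.equivFinOfCardEq h) M))
  unfold ofPoly
  exact if_pos this

theorem ev_ofPoly (v : F[X] → ℂ) {k : ℕ} (h : Fintype.card ι = k) (M : Matrix ι ι F)
    [Decidable (IsUnit M)] : (ofPoly v k).ev M = if IsUnit M then v M.charpoly else 0 := by
  split_ifs with hM
  · exact ev_ofPoly_pos v h hM
  · exact CF.ev_sing _ hM

/-- the trivial character -/
noncomputable def hh (F : Type*) [Field F] [Fintype F] [DecidableEq F] (k : ℕ) : CF F :=
  ofPoly (fun _ => 1) k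

@[simp] theorem hh_n (k : ℕ) : (hh F k).n = k := rfl

theorem hh_zero : hh F 0 = 1 := by
  refine CF.ext' rfl fun M => ?_
  have : IsEmpty (Fin (hh F 0).n) := inferInstanceAs (IsEmpty (Fin 0))
  rw [ev_one]
  have : IsUnit M := by rw [Subsingleton.elim M 1]; exact isUnit_one
  rw [← CF.ev_fin]
  exact ev_ofPoly_pos _ (Fintype.card_fin _) this

theorem ip_mul_hh (A : CF F) (k : ℕ) : ip (A * hh F k) (hh F (A.n + k)) = ip A (hh F A.n) := by
  classical
  rw [ip_mul A _ _ (α := Fin A.n) (β := Fin k) (by simp) (by simp), ip]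
  have h1 : ∀ (a : Matrix (Fin A.n) (Fin A.n) F) (d : Matrix (Fin k) (Fin k) F),
      A.ev a * (hh F k).ev d * conj (res (hh F (A.n + k)) a d) =
      A.f a * conj ((hh F A.n).ev a) * (Fintype.card F : ℂ) ^ (A.n * k) *
        if IsUnit d then 1 else 0 := by
    intro a d
    simp only [res, hh, ev_ofPoly _ (show Fintype.card (Fin A.n ⊕ Fin k) = A.n + k by simp),
      ev_ofPoly _ (Fintype.card_fin _), isUnit_fromBlocks, A.ev_fin]
    by_cases ha : IsUnit a <;> by_cases hd : IsUnit d <;> simp [ha, hd, card_mat]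
  simp only [h1, ← Finset.mul_sum, ← Finset.sum_mul, sum_isUnit, pc, hh_n, Fintype.card_fin]
  have := gl_ne (F := F) k
  have := card_ne (F := F)
  field_simp

open scoped Classical in
theorem ip_prod_hh (m : ℕ) : ∀ (ι : Type) [Fintype ι] [DecidableEq ι] (ℓ : ι → ℕ),
    (∀ i, ℓ i < m) → ∀ P : CF F,
    P = ∏ k ∈ Finset.range m, hh F (Finset.univ.filter fun i => ℓ i = k).card →
    P.n = Fintype.card ι ∧ ip P (hh F P.n) = 1 ∧ ∃ c : ℂ, ∀ X : CF F,
      ip P X = c * ∑ M : Matrix ι ι F, if M.BlockTriangular ℓ then conj (X.ev M) else 0 := by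
  induction m with
  | zero =>
    rintro ι _ _ ℓ h P rfl
    have : IsEmpty ι := ⟨fun i => absurd (h i) (by omega)⟩
    let _ : Unique (Matrix ι ι F) := ⟨⟨0⟩, fun b => Subsingleton.elim _ _⟩
    rw [Finset.range_zero, Finset.prod_empty]
    refine ⟨by simp, ?_, 1, fun X => ?_⟩
    · rw [one_n, hh_zero, isIr_one.ip_self]
    · rw [ip_eq _ _ (ι := ι) (by simp), Fintype.sum_unique, Fintype.sum_unique, ev_one,
        if_pos (show BlockTriangular (default : Matrix ι ι F) ℓ from fun i => isEmptyElim i)]
      simp [gl_zero]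
  | succ m ih =>
    rintro ι _ _ ℓ h P rfl
    rw [Finset.prod_range_succ]
    obtain ⟨h1, h2, c, h3⟩ := ih {i // ℓ i < m} (fun i => ℓ i.1) (fun i => i.2)
      (∏ k ∈ Finset.range m, hh F (Finset.univ.filter fun i => ℓ i = k).card) (by
        refine Finset.prod_congr rfl fun k hk => ?_
        congr 1
        rw [← Fintype.card_subtype, ← Fintype.card_subtype]
        exact Fintype.card_congr (Equiv.subtypeSubtypeEquivSubtype (q := fun i => ℓ i = k)
          fun {x} hx => hx ▸ Finset.mem_range.1 hk).symm)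
    generalize (∏ k ∈ Finset.range m, hh F (Finset.univ.filter fun i => ℓ i = k).card) = A at *
    have h4 : Fintype.card {i // ¬ ℓ i < m} = (Finset.univ.filter fun i => ℓ i = m).card := by
      rw [Fintype.card_subtype]
      congr 1
      ext i
      have := h i
      simp only [Finset.mem_filter, Finset.mem_univ, true_and]
      omega
    rw [← h4]
    refine ⟨?_, ?_, (pc F A.n (Fintype.card {i // ¬ ℓ i < m}))⁻¹ * gl F A.n * c, fun X => ?_⟩
    · rw [mul_n, h1, hh_n, ← Fintype.card_sum]
      exact Fintype.card_congr (Equiv.sumCompl _)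
    · rw [mul_n, hh_n, ip_mul_hh, h2]
    · rw [ip_mul A _ X (α := {i // ℓ i < m}) (β := {i // ¬ ℓ i < m}) h1.symm rfl,
        ← sum_submatrix (Equiv.sumCompl fun i => ℓ i < m).symm, sum_fromBlocks, Finset.sum_comm,
        Finset.sum_comm (s := (Finset.univ : Finset (Matrix {i // ℓ i < m} {i // ℓ i < m} F))),
        hh_n, mul_assoc, mul_assoc]
      congr 1
      rw [Finset.mul_sum, Finset.mul_sum]
      refine Finset.sum_congr rfl fun d _ => ?_
      have h5 := h3 (rgt X d A.n)
      rw [ip_eq _ _ h1.symm] at h5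
      simp only [ev_rgt X d h1.symm, res_comm X d] at h5
      have h6 : ∀ (a : Matrix {i // ℓ i < m} {i // ℓ i < m} F)
          (b : Matrix {i // ℓ i < m} {i // ¬ ℓ i < m} F)
          (z : Matrix {i // ¬ ℓ i < m} {i // ℓ i < m} F),
          ((fromBlocks a b z d).submatrix (Equiv.sumCompl fun i => ℓ i < m).symm
            (Equiv.sumCompl fun i => ℓ i < m).symm).BlockTriangular ℓ ↔
          z = 0 ∧ a.BlockTriangular fun i => ℓ i.1 := by
        intro a b z
        simp only [BlockTriangular, (Equiv.sumCompl fun i => ℓ i < m).surjective.forall,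
          submatrix_apply, Equiv.symm_apply_apply, Sum.forall, fromBlocks_apply₁₁,
          fromBlocks_apply₁₂, fromBlocks_apply₂₁, fromBlocks_apply₂₂, Equiv.sumCompl_apply_inl,
          Equiv.sumCompl_apply_inr]
        constructor
        · rintro ⟨a1, a2⟩
          refine ⟨?_, fun i j hij => (a1 i).1 j hij⟩
          ext i j
          exact (a2 i).1 j (by have := i.2; have := j.2; omega)
        · rintro ⟨rfl, a1⟩
          refine ⟨fun i => ⟨fun j hij => a1 hij, fun j hij => ?_⟩, fun i => ⟨fun _ _ => rfl,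
            fun j hij => ?_⟩⟩
          · have := i.2; have := j.2; omega
          · have := i.2; have := j.2; have := h i.1; omega
      simp only [h6, CF.ev_submatrix]
      have h7 : ∀ a : Matrix {i // ℓ i < m} {i // ℓ i < m} F,
          ∑ b : Matrix {i // ℓ i < m} {i // ¬ ℓ i < m} F,
          ∑ z : Matrix {i // ¬ ℓ i < m} {i // ℓ i < m} F,
            (if z = 0 ∧ a.BlockTriangular fun i => ℓ i.1 then conj (X.ev (fromBlocks a b z d))
              else 0) =
          if a.BlockTriangular fun i => ℓ i.1 then conj (res X a d) else 0 := by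
        intro a
        split_ifs with ha <;> simp [ha, res]
      simp only [h7]
      rw [← h5, ← mul_assoc, mul_inv_cancel₀ (gl_ne _), one_mul]
      refine Finset.sum_congr rfl fun a _ => ?_
      rw [hh, ev_ofPoly _ rfl]
      split_ifs with hd
      · rw [mul_one]
      · simp [res_sing_right X a hd]

theorem fixedPointCharacter_parabolic {n : ℕ} {μ : Fin n → ℕ} (hμ : ∑ j, μ j = n) :
    fixedPointCharacter (parabolicGL n F μ) = (∏ i, hh F (μ i)).chr (Fin n) := by
  classical
  obtain ⟨h1, h2, c, h3⟩ := ip_prod_hh (F := F) n (Fin n) (compLabel μ) (GLn.compLabel_lt hμ)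
    (∏ i, hh F (μ i)) (by
      rw [Finset.prod_range]
      exact Finset.prod_congr rfl fun k _ => by rw [GLn.card_compLabel_eq hμ])
  generalize (∏ i, hh F (μ i)) = P at *
  have key : ∀ X : CF F, ∑ M : Matrix (Fin n) (Fin n) F,
      (if M.BlockTriangular (compLabel μ) then conj (X.ev M) else 0) =
      ∑ h : parabolicGL n F μ, conj (X.chr (Fin n) h) := by
    intro X
    refine (Fintype.sum_of_injective (fun u : parabolicGL n F μ => u.1.1)
      (Units.val_injective.comp Subtype.val_injective) _ _ (fun M hM => ?_) fun u => ?_).symm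
    · split_ifs with h
      · rw [X.ev_sing, map_zero]
        rintro ⟨x, rfl⟩
        exact hM ⟨⟨x, h⟩, rfl⟩
      · rfl
    · exact (if_pos u.2).symm
  have h4 : c * Nat.card (parabolicGL n F μ) = 1 := by
    rw [← h2, h3, key]
    simp [CF.chr, hh, ev_ofPoly _ h1.symm]
  refine Char.class_ext_inner (Char.isClass_of_isChar (Char.isChar_fixedPointCharacter _))
    (P.isClass_chr _) fun χ hχ => ?_
  have h5 := h3 (ofClass χ (Char.isClass_of_irr hχ))
  rw [ip_eq_inner _ _ h1.symm, key, chr_ofClass] at h5
  rw [h5, Char.inner_fixedPointCharacter_left _ (Char.isClass_of_irr hχ), classInner,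
    eq_inv_of_mul_eq_one_left h4]
  simp

section toeplitz
variable {R : Type*} [CommRing R]

def toep (c a : ℕ → R) (n : ℕ) : Matrix (Fin n) (Fin n) R :=
  of fun i j => if j.val = 0 then c i else if j.val ≤ i.val + 1 then a (i.val + 1 - j.val) else 0

theorem det_toep {a : ℕ → R} (ha : a 0 = 1) (n : ℕ) : ∀ c : ℕ → R, (toep c a (n + 1)).det =
    ∑ k ∈ Finset.range (n + 1), (-1) ^ k * c k * (toep (fun i => a (i + 1)) a (n - k)).det := by
  induction n with
  | zero => intro c; simp [toep]
  | succ n ih =>
    intro c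
    rw [det_succ_row_zero, Fin.sum_univ_succ, Fin.sum_univ_succ, Finset.sum_eq_zero, add_zero,
      Finset.sum_range_succ']
    · have h1 : (toep c a (n + 2)).submatrix Fin.succ (Fin.succAbove 0) =
          toep (fun i => a (i + 1)) a (n + 1) := by
        ext i j
        simp only [toep, submatrix_apply, of_apply, Fin.succAbove_zero, Fin.val_succ]
        by_cases hj : j.val = 0
        · simp [hj]
        · simp [hj]
      have h2 : (toep c a (n + 2)).submatrix Fin.succ (Fin.succAbove (Fin.succ 0)) =
          toep (fun i => c (i + 1)) a (n + 1) := by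
        ext i j
        refine Fin.cases ?_ (fun j => ?_) j
        · simp [toep]
        · simp [toep]
      have h3 : toep c a (n + 2) 0 0 = c 0 := rfl
      have h4 : toep c a (n + 2) 0 (Fin.succ 0) = 1 := ha
      rw [h1, h2, ih fun i => c (i + 1), h3, h4, add_comm, Finset.mul_sum]
      congr 1
      · refine Finset.sum_congr rfl fun k _ => ?_
        rw [Nat.add_sub_add_right]
        simp [pow_succ]
    · intro j _
      simp [toep]

end toeplitz

/-- evaluation of formal linear combinations -/
noncomputable def evR (M : Matrix ι ι F) : MonoidAlgebra ℂ (CF F) →ₗ[ℂ] ℂ :=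
  (Finsupp.linearCombination ℂ fun A : CF F => A.ev M).comp
    (MonoidAlgebra.coeffLinearEquiv ℂ).toLinearMap

theorem evR_single (M : Matrix ι ι F) (A : CF F) (c : ℂ) :
    evR M (MonoidAlgebra.single A c) = c * A.ev M := by
  simp [evR]

theorem evR_mul (Z : MonoidAlgebra ℂ (CF F)) (B : CF F) (e : α ⊕ β ≃ ι)
    (hb : Fintype.card β = B.n) (M : Matrix ι ι F) :
    evR M (Z * MonoidAlgebra.single B 1) = (pc F (Fintype.card α) B.n)⁻¹ * ∑ x : GL ι F,
      if ((((x⁻¹ : GL ι F) : Matrix ι ι F) * M * (x : Matrix ι ι F)).submatrix e e).toBlocks₂₁ = 0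
      then evR ((((x⁻¹ : GL ι F) : Matrix ι ι F) * M * (x : Matrix ι ι F)).submatrix e e).toBlocks₁₁ Z
        * B.ev ((((x⁻¹ : GL ι F) : Matrix ι ι F) * M * (x : Matrix ι ι F)).submatrix e e).toBlocks₂₂
      else 0 := by
  induction Z using MonoidAlgebra.induction_linear with
  | zero => simp
  | add Z W h1 h2 =>
    rw [add_mul, map_add, h1, h2, ← mul_add, ← Finset.sum_add_distrib]
    congr 1
    refine Finset.sum_congr rfl fun x _ => ?_
    split_ifs
    · rw [map_add, add_mul]
    · simp
  | single A c =>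
    simp only [MonoidAlgebra.single_mul_single, evR_single, mul_one]
    by_cases ha : Fintype.card α = A.n
    · rw [ev_mul A B e ha hb, ha, mul_left_comm, Finset.mul_sum]
      congr 1
      refine Finset.sum_congr rfl fun x _ => ?_
      unfold tt
      split_ifs
      · rw [mul_assoc c]
      · simp
    · rw [CF.ev_of_ne]
      · simp [A.ev_of_ne ha]
      · rw [← Fintype.card_congr e, Fintype.card_sum, mul_n]
        omega

/-- the Jacobi-Trudi determinant of the Steinberg character -/
noncomputable def stR (F : Type*) [Field F] [Fintype F] [DecidableEq F] (n : ℕ) :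
    MonoidAlgebra ℂ (CF F) :=
  (toep (fun i => MonoidAlgebra.single (hh F (i + 1)) 1)
    (fun i => MonoidAlgebra.single (hh F i) 1) n).det

theorem stR_succ (n : ℕ) : stR F (n + 1) = ∑ k ∈ Finset.range (n + 1),
    (-1) ^ k * (stR F (n - k) * MonoidAlgebra.single (hh F (k + 1)) 1) := by
  rw [stR, det_toep (by rw [hh_zero]; rfl)]
  refine Finset.sum_congr rfl fun k _ => ?_
  rw [mul_assoc, mul_comm (MonoidAlgebra.single _ _)]
  rfl

theorem unipotentCharacterGL_one {n : ℕ} (x : GL (Fin n) F) :
    unipotentCharacterGL n F (fun _ => 1) x = evR x.1 (stR F n) := by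
  rw [stR, ← det_transpose, det_apply', map_sum]
  refine Finset.sum_congr rfl fun κ _ => ?_
  have h1 : ∀ i j : Fin n, toep (fun i => MonoidAlgebra.single (hh F (i + 1)) (1 : ℂ))
      (fun i => MonoidAlgebra.single (hh F i) 1) n i j =
      if j.val ≤ 1 + i.val then MonoidAlgebra.single (hh F (1 + i.val - j.val)) 1 else 0 := by
    intro i j
    simp only [toep, of_apply, add_comm 1]
    split_ifs with h1 h2 <;> simp_all
  simp only [transpose_apply, h1]
  split_ifs with h
  · rw [fixedPointCharacter_parabolic (GLn.sum_sub_perm (ν := fun _ => 1) (by simp) κ h),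
      Finset.prod_congr rfl fun i _ => if_pos (h i)]
    have h2 := map_prod (MonoidAlgebra.of ℂ (CF F)) (fun i => hh F (1 + i.val - (κ i).val))
      Finset.univ
    simp only [MonoidAlgebra.of_apply] at h2
    rw [← h2, ← zsmul_eq_mul (MonoidAlgebra.single _ _), map_zsmul, evR_single, one_mul,
      zsmul_eq_mul]
    rfl
  · push Not at h
    obtain ⟨i, hi⟩ := h
    rw [Finset.prod_eq_zero (Finset.mem_univ i) (if_neg (by omega))]
    simp

end Cfsg.Agent.HC
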