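/-
Values of the Steinberg character of `GL_n(q)` at semisimple elements.
-/
import Cfsg.Agent.Lib.GLn.HC8

set_option autoImplicit false
set_option linter.unusedSectionVars false

namespace Cfsg.Agent.HC

open Matrix Cfsg Polynomial UniqueFactorizationMonoid
open scoped MatrixGroups ComplexConjugate

variable {F : Type*} [Field F] [Fintype F] [DecidableEq F]
variable {ι κ α β γ δ : Type*} [Fintype ι] [Fintype κ] [Fintype α] [Fintype β] [Fintype γ]
  [Fintype δ] [DecidableEq ι] [DecidableEq κ] [DecidableEq α] [DecidableEq β] [DecidableEq γ]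
  [DecidableEq δ]

/-- extension by zero -/
def ext0 (e : α ⊕ β ≃ ι) : (α → F) →ₗ[F] (ι → F) where
  toFun v := Sum.elim v 0 ∘ e.symm
  map_add' v w := by
    ext i
    obtain ⟨i | i, rfl⟩ := e.surjective i <;> simp
  map_smul' c v := by
    ext i
    obtain ⟨i | i, rfl⟩ := e.surjective i <;> simp

theorem ext0_inl (e : α ⊕ β ≃ ι) (v : α → F) (i : α) : ext0 e v (e (Sum.inl i)) = v i := by
  simp [ext0]

theorem ext0_inr (e : α ⊕ β ≃ ι) (v : α → F) (i : β) : ext0 e v (e (Sum.inr i)) = 0 := by
  simp [ext0]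

theorem ext0_injective (e : α ⊕ β ≃ ι) : Function.Injective (ext0 (F := F) e) := fun v w h =>
  funext fun i => by rw [← ext0_inl e v, h, ext0_inl]

theorem mulVec_ext0 (e : α ⊕ β ≃ ι) (N : Matrix ι ι F) (v : α → F) (i : α ⊕ β) :
    (N *ᵥ ext0 e v) (e i) = ∑ j, N (e i) (e (Sum.inl j)) * v j := by
  simp only [mulVec, dotProduct]
  rw [← e.sum_comp, Fintype.sum_sum_type]
  simp [ext0_inl, ext0_inr]

theorem mulVec_ext0_of (e : α ⊕ β ≃ ι) {N : Matrix ι ι F} (h : (N.submatrix e e).toBlocks₂₁ = 0)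
    (v : α → F) : N *ᵥ ext0 e v = ext0 e ((N.submatrix e e).toBlocks₁₁ *ᵥ v) := by
  ext i
  obtain ⟨i | i, rfl⟩ := e.surjective i
  · rw [mulVec_ext0, ext0_inl]; rfl
  · rw [mulVec_ext0, ext0_inr]
    refine Finset.sum_eq_zero fun j _ => ?_
    rw [show N (e (Sum.inr i)) (e (Sum.inl j)) = 0 from congrFun (congrFun h i) j, zero_mul]

theorem toBlocks_eq_zero_of (e : α ⊕ β ≃ ι) {N : Matrix ι ι F}
    (h : ∀ v, ∃ w, N *ᵥ ext0 e v = ext0 e w) : (N.submatrix e e).toBlocks₂₁ = 0 := by
  ext i j
  obtain ⟨w, hw⟩ := h (Pi.single j 1)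
  have := congrFun hw (e (Sum.inr i))
  rw [mulVec_ext0, ext0_inr, Finset.sum_eq_single j (fun b _ hb => by simp [hb]) (by simp)] at this
  simpa [toBlocks₂₁] using this

/-- the span of the columns of the first block -/
def rng (e : α ⊕ β ≃ ι) (x : GL ι F) : Submodule F (ι → F) :=
  LinearMap.range ((x : Matrix ι ι F).mulVecLin ∘ₗ ext0 e)

theorem mem_rng {e : α ⊕ β ≃ ι} {x : GL ι F} {w : ι → F} :
    w ∈ rng e x ↔ ∃ v, (x : Matrix ι ι F) *ᵥ ext0 e v = w := Iff.rfl

theorem mulVec_GL_injective (x : GL ι F) : Function.Injective (x : Matrix ι ι F).mulVec :=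
  fun v w h => by simpa using congrArg ((x⁻¹ : GL ι F) : Matrix ι ι F).mulVec h

theorem finrank_rng (e : α ⊕ β ≃ ι) (x : GL ι F) :
    Module.finrank F (rng e x) = Fintype.card α := by
  rw [rng, LinearMap.finrank_range_of_inj ((mulVec_GL_injective x).comp (ext0_injective e))]
  simp

theorem exists_rng (e : α ⊕ β ≃ ι) (U : Submodule F (ι → F))
    (h : Module.finrank F U = Fintype.card α) : ∃ x, rng e x = U := by
  obtain ⟨U', hU⟩ := U.exists_isCompl
  have h' : Module.finrank F U' = Fintype.card β := by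
    have := Submodule.finrank_add_eq_of_isCompl hU
    rw [h, Module.finrank_fintype_fun_eq_card, ← Fintype.card_congr e, Fintype.card_sum] at this
    omega
  let f : (α → F) ≃ₗ[F] U := LinearEquiv.ofFinrankEq _ _ (by simp [h])
  let f' : (β → F) ≃ₗ[F] U' := LinearEquiv.ofFinrankEq _ _ (by simp [h'])
  obtain ⟨x, hx⟩ := GLn.exists_GL_of_linearEquiv ((LinearEquiv.funCongrLeft F F e).trans
    ((LinearEquiv.sumArrowLequivProdArrow α β F F).trans ((f.prodCongr f').trans
      (Submodule.prodEquivOfIsCompl U U' hU))))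
  have h1 : ∀ v, (x : Matrix ι ι F) *ᵥ ext0 e v = f v := by
    intro v
    rw [hx]
    have h2 : (LinearEquiv.sumArrowLequivProdArrow α β F F)
        ((LinearEquiv.funCongrLeft F F e) (ext0 e v)) = (v, 0) := by
      ext i
      · exact ext0_inl e v i
      · exact ext0_inr e v i
    simp only [LinearEquiv.trans_apply, h2]
    simp
  refine ⟨x, le_antisymm ?_ fun w hw => ?_⟩
  · intro w hw
    obtain ⟨v, rfl⟩ := mem_rng.1 hw
    rw [h1]
    exact (f v).2
  · exact ⟨f.symm ⟨w, hw⟩, (h1 _).trans (by simp)⟩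

theorem rng_mul_eq (e : α ⊕ β ≃ ι) (x p : GL ι F) :
    rng e (x * p) = rng e x ↔ ((p : Matrix ι ι F).submatrix e e).toBlocks₂₁ = 0 := by
  constructor
  · intro h
    refine toBlocks_eq_zero_of e fun v => ?_
    have : (x * p : GL ι F).1 *ᵥ ext0 e v ∈ rng e x := h ▸ ⟨v, rfl⟩
    obtain ⟨w, hw⟩ := mem_rng.1 this
    exact ⟨w, mulVec_GL_injective x (by rw [hw, mulVec_mulVec]; rfl)⟩
  · intro h
    refine Submodule.eq_of_le_of_finrank_eq ?_ (by rw [finrank_rng, finrank_rng])
    intro w hw
    obtain ⟨v, rfl⟩ := mem_rng.1 hw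
    rw [Units.val_mul, ← mulVec_mulVec, mulVec_ext0_of e h]
    exact ⟨_, rfl⟩

theorem sum_parabolic (e : α ⊕ β ≃ ι) :
    ∑ p : GL ι F, (if ((p : Matrix ι ι F).submatrix e e).toBlocks₂₁ = 0 then (1 : ℂ) else 0) =
      pc F (Fintype.card α) (Fintype.card β) := by
  classical
  have h1 := sum_GL (fun M : Matrix ι ι F =>
    if IsUnit (M.submatrix e e) ∧ (M.submatrix e e).toBlocks₂₁ = 0 then (1 : ℂ) else 0)
    (fun M hM => if_neg fun h => hM ((isUnit_submatrix e M).1 h.1))
  simp only [isUnit_submatrix, Units.isUnit, true_and] at h1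
  rw [h1]
  simp only [← isUnit_submatrix e]
  rw [sum_submatrix e (fun N => if IsUnit N ∧ N.toBlocks₂₁ = 0 then (1 : ℂ) else 0),
    sum_fromBlocks]
  have h2 : ∀ (a : Matrix α α F) (d : Matrix β β F), ∑ b : Matrix α β F, ∑ c : Matrix β α F,
      (if IsUnit (fromBlocks a b c d) ∧ (fromBlocks a b c d).toBlocks₂₁ = 0 then (1 : ℂ) else 0) =
      (if IsUnit a then 1 else 0) * ((if IsUnit d then 1 else 0) *
        (Fintype.card F : ℂ) ^ (Fintype.card α * Fintype.card β)) := by
    intro a d
    rw [Finset.sum_comm, Finset.sum_eq_single 0 (fun b _ hb => by simp [hb]) (by simp)]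
    simp only [isUnit_fromBlocks, toBlocks_fromBlocks₂₁, and_true]
    by_cases ha : IsUnit a <;> by_cases hd : IsUnit d <;> simp [ha, hd, card_mat]
  simp only [h2, ← Finset.mul_sum, ← Finset.sum_mul, sum_isUnit, pc, mul_assoc]

open scoped Classical in
theorem sum_rng (e : α ⊕ β ≃ ι) (U : Submodule F (ι → F)) :
    ∑ x : GL ι F, (if rng e x = U then (1 : ℂ) else 0) =
      if Module.finrank F U = Fintype.card α then pc F (Fintype.card α) (Fintype.card β) else 0 := by
  split_ifs with h
  · obtain ⟨x, rfl⟩ := exists_rng e U h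
    rw [← sum_parabolic e, ← Equiv.sum_comp (Equiv.mulLeft x)]
    simp only [Equiv.coe_mulLeft, rng_mul_eq]
  · refine Finset.sum_eq_zero fun x _ => if_neg ?_
    rintro rfl
    exact h (finrank_rng e x)

/-- the module defined by a matrix -/
abbrev MMod (M : Matrix ι ι F) := Module.AEval' (Matrix.toLin' M)

instance (M : Matrix ι ι F) : Finite (MMod M) :=
  Finite.of_equiv _ (Module.AEval'.of (Matrix.toLin' M)).toEquiv

/-- the subspace underlying a submodule -/
noncomputable def under {M : Matrix ι ι F} (W : Submodule F[X] (MMod M)) : Submodule F (ι → F) :=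
  (W.restrictScalars F).comap (Module.AEval'.of (Matrix.toLin' M)).toLinearMap

theorem mem_under {M : Matrix ι ι F} {W : Submodule F[X] (MMod M)} {v : ι → F} :
    v ∈ under W ↔ Module.AEval'.of (Matrix.toLin' M) v ∈ W := Iff.rfl

theorem under_injective {M : Matrix ι ι F} : Function.Injective (under (M := M)) := by
  intro W W' h
  ext v
  obtain ⟨v, rfl⟩ := (Module.AEval'.of (Matrix.toLin' M)).surjective v
  rw [← mem_under, h, mem_under]

theorem finrank_under {M : Matrix ι ι F} (W : Submodule F[X] (MMod M)) :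
    Module.finrank F (under W) = Module.finrank F W :=
  LinearEquiv.finrank_eq ((Module.AEval'.of (Matrix.toLin' M)).ofSubmodule' (W.restrictScalars F))

theorem X_smul_of (M : Matrix ι ι F) (v : ι → F) :
    (X : F[X]) • Module.AEval'.of (Matrix.toLin' M) v =
      Module.AEval'.of (Matrix.toLin' M) (M *ᵥ v) := by
  rw [Module.AEval'.X_smul_of, toLin'_apply]

theorem exists_under {M : Matrix ι ι F} (U : Submodule F (ι → F)) (h : ∀ v ∈ U, M *ᵥ v ∈ U) :
    ∃ W : Submodule F[X] (MMod M), under W = U :=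
  ⟨Module.AEval.mapSubmodule F _ (Matrix.toLin' M) ⟨U, fun v hv => by simpa using h v hv⟩, by
    ext v
    rw [mem_under, Module.AEval.mem_mapSubmodule_apply]
    rfl⟩

theorem ch_MMod (M : Matrix ι ι F) : SSM.ch F (MMod M) = M.charpoly := by
  rw [SSM.ch_eq_of_equiv (Module.AEval'.of (Matrix.toLin' M)) (Matrix.toLin' M) fun v =>
    (Module.AEval'.X_smul_of _ v).symm, charpoly_toLin']

open scoped Classical in
theorem ev_ofPoly_mul_hh (v : F[X] → ℂ) {a b : ℕ} (h : a + b = Fintype.card ι) {M : Matrix ι ι F}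
    (hM : IsUnit M) [Fintype (Submodule F[X] (MMod M))] :
    (ofPoly v a * hh F b).ev M =
      ∑ W : Submodule F[X] (MMod M), if Module.finrank F W = a then v (SSM.ch F W) else 0 := by
  let e : Fin a ⊕ Fin b ≃ ι := Fintype.equivOfCardEq (by simpa using h)
  rw [ev_mul _ _ e (Fintype.card_fin _) (Fintype.card_fin _)]
  have h1 : ∀ x : GL ι F, tt (ofPoly v a) (hh F b)
      ((((x⁻¹ : GL ι F) : Matrix ι ι F) * M * (x : Matrix ι ι F)).submatrix e e) =
      ∑ W : Submodule F[X] (MMod M), (if rng e x = under W then 1 else 0) * v (SSM.ch F W) := by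
    intro x
    set N := ((x⁻¹ : GL ι F) : Matrix ι ι F) * M * (x : Matrix ι ι F) with hN
    have hx : ∀ w, M *ᵥ ((x : Matrix ι ι F) *ᵥ w) = (x : Matrix ι ι F) *ᵥ (N *ᵥ w) := by
      intro w
      simp [hN, ← Matrix.mul_assoc]
    by_cases h0 : (N.submatrix e e).toBlocks₂₁ = 0
    · obtain ⟨W, hW⟩ := exists_under (M := M) (rng e x) fun w hw => by
        obtain ⟨u, rfl⟩ := mem_rng.1 hw
        rw [hx, mulVec_ext0_of e h0]
        exact ⟨_, rfl⟩
      have hu : IsUnit (N.submatrix e e) := by
        rw [isUnit_submatrix]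
        exact (x⁻¹.isUnit.mul hM).mul x.isUnit
      rw [← fromBlocks_toBlocks (N.submatrix e e), h0, isUnit_fromBlocks] at hu
      rw [Finset.sum_eq_single W (fun W' _ h' => by
        rw [if_neg, zero_mul]
        exact fun h2 => h' (under_injective (h2.symm.trans hW.symm))) (by simp), if_pos hW.symm,
        one_mul, tt, if_pos h0, hh, ev_ofPoly_pos _ (Fintype.card_fin _) hu.1,
        ev_ofPoly_pos _ (Fintype.card_fin _) hu.2, mul_one]
      congr 1
      let φ : (Fin a → F) →ₗ[F] W :=
        { toFun := fun u => ⟨Module.AEval'.of (Matrix.toLin' M) ((x : Matrix ι ι F) *ᵥ ext0 e u),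
            mem_under.1 (hW ▸ ⟨u, rfl⟩)⟩
          map_add' := fun u u' => Subtype.ext (by simp [mulVec_add])
          map_smul' := fun c u => Subtype.ext (by simp [mulVec_smul]) }
      have hφ : Function.Bijective φ := by
        constructor
        · intro u u' hu
          exact ext0_injective e (mulVec_GL_injective x
            ((Module.AEval'.of (Matrix.toLin' M)).injective (congrArg Subtype.val hu)))
        · rintro ⟨w, hw⟩
          obtain ⟨w, rfl⟩ := (Module.AEval'.of (Matrix.toLin' M)).surjective w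
          rw [← mem_under, hW] at hw
          obtain ⟨u, rfl⟩ := mem_rng.1 hw
          exact ⟨u, rfl⟩
      rw [SSM.ch_eq_of_equiv (LinearEquiv.ofBijective φ hφ)
        (Matrix.toLin' (N.submatrix e e).toBlocks₁₁) fun u => Subtype.ext ?_, charpoly_toLin']
      change Module.AEval'.of (Matrix.toLin' M) _ = (X : F[X]) • Module.AEval'.of (Matrix.toLin' M) _
      rw [X_smul_of, hx, mulVec_ext0_of e h0, toLin'_apply]
    · rw [tt, if_neg h0, Finset.sum_eq_zero]
      intro W _
      rw [if_neg, zero_mul]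
      intro hW
      refine h0 (toBlocks_eq_zero_of e fun u => ?_)
      have h2 : (x : Matrix ι ι F) *ᵥ ext0 e u ∈ under W := hW ▸ ⟨u, rfl⟩
      have h3 := W.smul_mem X (mem_under.1 h2)
      rw [X_smul_of, ← mem_under, ← hW, hx] at h3
      obtain ⟨w, hw⟩ := mem_rng.1 h3
      exact ⟨w, (mulVec_GL_injective x hw).symm⟩
  simp only [h1]
  rw [Finset.sum_comm, Finset.mul_sum]
  refine Finset.sum_congr rfl fun W _ => ?_
  rw [← Finset.sum_mul, sum_rng, finrank_under, Fintype.card_fin, Fintype.card_fin]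
  split_ifs
  · exact inv_mul_cancel_left₀ (pc_ne _ _) _
  · simp

/-- the value of the Steinberg character -/
noncomputable def stVal (c : F[X]) : ℂ :=
  ∏ f ∈ (normalizedFactors c).toFinset,
    (-1 : ℂ) ^ ((f.natDegree - 1) * (normalizedFactors c).count f) *
      (Fintype.card F : ℂ) ^ (f.natDegree * (normalizedFactors c).count f *
        ((normalizedFactors c).count f - 1) / 2)

theorem stVal_mul {f c : F[X]} (hf : f.Monic) (hi : Irreducible f) (hc : c.Monic) :
    stVal (f * c) = (-1) ^ (f.natDegree - 1) *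
      (Fintype.card F : ℂ) ^ (f.natDegree * (normalizedFactors c).count f) * stVal c := by
  unfold stVal
  rw [normalizedFactors_mul hf.ne_zero hc.ne_zero, normalizedFactors_irreducible hi,
    hf.normalize_eq_self, Multiset.singleton_add]
  generalize normalizedFactors c = S
  let g : F[X] → ℕ → ℂ := fun f m => (-1 : ℂ) ^ ((f.natDegree - 1) * m) *
      (Fintype.card F : ℂ) ^ (f.natDegree * m * (m - 1) / 2)
  change ∏ h ∈ (f ::ₘ S).toFinset, g h ((f ::ₘ S).count h) = _ * ∏ h ∈ S.toFinset, g h (S.count h)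
  have h1 : ∏ h ∈ S.toFinset, g h (S.count h) = ∏ h ∈ (f ::ₘ S).toFinset, g h (S.count h) := by
    refine Finset.prod_subset (by simp) fun h _ h2 => ?_
    rw [Multiset.count_eq_zero_of_notMem (by simpa using h2)]
    simp [g]
  rw [h1, ← Finset.mul_prod_erase _ (fun h => g h ((f ::ₘ S).count h)) (a := f) (by simp),
    ← Finset.mul_prod_erase _ (fun h => g h (S.count h)) (a := f) (by simp), ← mul_assoc]
  congr 1
  · rw [Multiset.count_cons_self]
    generalize S.count f = m
    have h2 : f.natDegree * (m + 1) * (m + 1 - 1) / 2 =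
        f.natDegree * m + f.natDegree * m * (m - 1) / 2 := by
      rw [← Nat.mul_add_div (by norm_num)]
      congr 1
      cases m with
      | zero => simp
      | succ m => simp only [Nat.add_sub_cancel]; ring
    simp only [g, h2]
    ring
  · refine Finset.prod_congr rfl fun h h2 => ?_
    rw [Multiset.count_cons_of_ne (Finset.ne_of_mem_erase h2)]

theorem pow_fromBlocks (a : Matrix α α F) (b : Matrix α β F) (d : Matrix β β F) (k : ℕ) :
    ∃ b', fromBlocks a b 0 d ^ k = fromBlocks (a ^ k) b' 0 (d ^ k) := by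
  induction k with
  | zero => exact ⟨0, by simp⟩
  | succ k ih =>
    obtain ⟨b', h⟩ := ih
    exact ⟨_, by rw [pow_succ, h, fromBlocks_multiply]; simp [pow_succ]; rfl⟩

theorem evR_stR {N : ℕ} (hN : (N : F) ≠ 0) (n : ℕ) : ∀ (ι : Type) [Fintype ι] [DecidableEq ι]
    (M : Matrix ι ι F), Fintype.card ι = n → M ^ N = 1 → evR M (stR F n) = stVal M.charpoly := by
  induction n using Nat.strong_induction_on with
  | _ n ih =>
  intro ι _ _ M hn hM
  classical
  have hN0 : N ≠ 0 := by rintro rfl; simp at hN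
  rcases n with _ | n
  · have : IsEmpty ι := Fintype.card_eq_zero_iff.1 hn
    have h1 : M.charpoly = 1 := by simp [charpoly]
    rw [h1, stVal, stR]
    simp [MonoidAlgebra.one_def, evR_single, ev_one]
  have hu : IsUnit M := IsUnit.of_pow_eq_one hM hN0
  have := Fintype.ofFinite (Submodule F[X] (MMod M))
  have hs : IsSemisimpleModule F[X] (MMod M) :=
    Module.End.isSemisimple_of_squarefree_aeval_eq_zero (p := X ^ N - C 1)
      (separable_X_pow_sub_C 1 hN one_ne_zero).squarefree (by
        simp only [map_sub, map_pow, aeval_X, map_one]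
        rw [← Matrix.toLin'_pow M, hM, toLin'_one]
        exact sub_self _)
  have hnt : Nontrivial (MMod M) := by
    have : Nonempty ι := Fintype.card_pos_iff.1 (by omega)
    exact (Module.AEval'.of (Matrix.toLin' M)).symm.toEquiv.nontrivial
  have h1 := SSM.sum_mu (F := F) (V := MMod M) (μ := fun c => (-1) ^ c.natDegree * stVal c)
    fun f c a1 a2 a3 => by
      rw [stVal_mul a1 a2 a3, a1.natDegree_mul a3]
      obtain ⟨k, hk⟩ : ∃ k, f.natDegree = k + 1 := ⟨f.natDegree - 1, by
        have := a2.natDegree_pos; omega⟩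
      have h2 : (-1 : ℂ) ^ k * (-1) ^ k = 1 := by rw [← mul_pow]; simp
      rw [hk, Nat.add_sub_cancel]
      linear_combination (-(-1) ^ c.natDegree *
        (Fintype.card F : ℂ) ^ ((k + 1) * (normalizedFactors c).count f) * stVal c) * h2
  have h2 : ∀ k ∈ Finset.range (n + 1),
      evR M ((-1) ^ k * (stR F (n - k) * MonoidAlgebra.single (hh F (k + 1)) 1)) =
      ∑ W : Submodule F[X] (MMod M), if Module.finrank F W = n - k then
        (-1) ^ k * stVal (SSM.ch F W) else 0 := by
    intro k hk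
    rw [Finset.mem_range] at hk
    have h3 : ∀ Z, evR M ((-1) ^ k * Z) = (-1) ^ k * evR M Z := by
      intro Z
      rcases neg_one_pow_eq_or ℤ k with h | h
      · have h4 := congrArg (Int.cast : ℤ → ℂ) h
        have h5 := congrArg (Int.cast : ℤ → MonoidAlgebra ℂ (CF F)) h
        push_cast at h4 h5
        simp [h4, h5]
      · have h4 := congrArg (Int.cast : ℤ → ℂ) h
        have h5 := congrArg (Int.cast : ℤ → MonoidAlgebra ℂ (CF F)) h
        push_cast at h4 h5
        simp [h4, h5]
    let e : Fin (n - k) ⊕ Fin (k + 1) ≃ ι := Fintype.equivOfCardEq (by simp; omega)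
    have h4 := ev_ofPoly_mul_hh stVal (a := n - k) (b := k + 1) (by omega) hu
    rw [ev_mul _ _ e (Fintype.card_fin _) (Fintype.card_fin _)] at h4
    rw [h3, evR_mul _ _ e (Fintype.card_fin _), Fintype.card_fin]
    simp only [← mul_ite_zero, ← Finset.mul_sum]
    rw [← h4]
    congr 2
    refine Finset.sum_congr rfl fun x _ => ?_
    unfold tt
    split_ifs with h5
    · congr 1
      set N' := (((x⁻¹ : GL ι F) : Matrix ι ι F) * M * (x : Matrix ι ι F)).submatrix e e with hN'
      have h6 : N' ^ N = 1 := by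
        have h7 : N' = reindexAlgEquiv F F e.symm (((x⁻¹ : GL ι F) : Matrix ι ι F) * M *
          ((x⁻¹ : GL ι F)⁻¹ : GL ι F)) := by rw [inv_inv]; rfl
        rw [h7, ← map_pow, Units.conj_pow, hM]
        simp
      obtain ⟨b', h7⟩ := pow_fromBlocks N'.toBlocks₁₁ N'.toBlocks₁₂ N'.toBlocks₂₂ N
      rw [← h5, fromBlocks_toBlocks, h6, ← fromBlocks_one, fromBlocks_inj] at h7
      rw [ih _ (by omega) _ _ (Fintype.card_fin _) h7.1.symm,
        ev_ofPoly_pos _ (Fintype.card_fin _) (IsUnit.of_pow_eq_one h7.1.symm hN0)]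
    · exact mul_zero _
  have hr : Module.finrank F (MMod M) = n + 1 := by
    rw [← (Module.AEval'.of (Matrix.toLin' M)).finrank_eq, ← hn]; simp
  rw [stR_succ, map_sum, Finset.sum_congr rfl h2, Finset.sum_comm]
  rw [← Finset.add_sum_erase _ _ (Finset.mem_univ ⊤)] at h1 ⊢
  have hr' : Module.finrank F (⊤ : Submodule F[X] (MMod M)) = n + 1 := by
    rw [← hr]
    exact (Submodule.topEquiv.restrictScalars F).finrank_eq
  rw [Finset.sum_eq_zero fun k _ => if_neg (by omega), zero_add]
  rw [SSM.natDegree_ch, hr', SSM.ch_congr (F := F) (V := (⊤ : Submodule F[X] (MMod M)))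
    Submodule.topEquiv, ch_MMod] at h1
  have h3 : (-1 : ℂ) ^ n * (-1) ^ n = 1 := by rw [← mul_pow]; simp
  have h4 : ∑ W ∈ Finset.univ.erase (⊤ : Submodule F[X] (MMod M)), ∑ k ∈ Finset.range (n + 1),
      (if Module.finrank F W = n - k then (-1) ^ k * stVal (SSM.ch F W) else 0) =
      (-1) ^ n * ∑ W ∈ Finset.univ.erase (⊤ : Submodule F[X] (MMod M)),
        (-1) ^ (SSM.ch F W).natDegree * stVal (SSM.ch F W) := by
    rw [Finset.mul_sum]
    refine Finset.sum_congr rfl fun W hW => ?_
    have h5 : Module.finrank F W < n + 1 := by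
      rw [← hr]
      refine Submodule.finrank_lt (s := W.restrictScalars F) ?_
      simpa using Finset.ne_of_mem_erase hW
    rw [SSM.natDegree_ch, Finset.sum_eq_single (n - Module.finrank F W)
      (fun k hk h6 => if_neg (by rw [Finset.mem_range] at hk; omega))
      (fun h => (h (Finset.mem_range.2 (by omega))).elim), if_pos (by omega), ← mul_assoc]
    congr 1
    obtain ⟨j, hj⟩ : ∃ j, n = Module.finrank F W + j := ⟨n - Module.finrank F W, by omega⟩
    generalize Module.finrank F W = r at hj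
    subst hj
    have h6 : (-1 : ℂ) ^ r * (-1) ^ r = 1 := by rw [← mul_pow]; simp
    rw [Nat.add_sub_cancel_left]
    linear_combination (-(-1) ^ j) * h6
  rw [h4]
  linear_combination (-1) ^ n * h1 + stVal M.charpoly * h3

end Cfsg.Agent.HC
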